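import Mathlib
import Cfsg.Agent.S0026

set_option autoImplicit false

/-!
helper70: abstract lemma for Bender–Glauberman 12.x/13.x: a solvable normal Hall subgroup `K`
with complement `E` in a group `L` with `K ≤ L'` satisfies `[K, E] = K` and `C_K(E) ≤ K'`.
-/

namespace Cfsg.Agent.Lib.Helper70.BG13a

open scoped commutatorElement

variable {L : Type*} [Group L]

theorem commElem_central_mul {Q : Type*} [Group Q] (a b y : Q) (ha : ∀ g : Q, a * g = g * a) :
    ⁅a * b, y⁆ = ⁅b, y⁆ := by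
  rw [commutatorElement_def, commutatorElement_def, mul_inv_rev]
  have h := ha (b * y * b⁻¹)
  calc a * b * y * (b⁻¹ * a⁻¹) * y⁻¹ = a * (b * y * b⁻¹) * a⁻¹ * y⁻¹ := by group
    _ = (b * y * b⁻¹) * a * a⁻¹ * y⁻¹ := by rw [h]
    _ = b * y * b⁻¹ * y⁻¹ := by group

theorem commElem_mul_central {Q : Type*} [Group Q] (a b y : Q) (ha : ∀ g : Q, a * g = g * a) :
    ⁅y, a * b⁆ = ⁅y, b⁆ := by
  rw [← commutatorElement_inv (a * b) y, commElem_central_mul a b y ha, commutatorElement_inv]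

/-- `L' ≤ [K, L] E'` when `L = K E` with `K` normal. -/
theorem commutator_le_sup (K E : Subgroup L) [K.Normal] (hsup : K ⊔ E = ⊤) :
    commutator L ≤ ⁅K, (⊤ : Subgroup L)⁆ ⊔ ⁅E, E⁆ := by
  have hTn : (⁅K, (⊤ : Subgroup L)⁆).Normal := Subgroup.commutator_normal K ⊤
  rw [commutator_def, Subgroup.commutator_le]
  intro x _ y _
  have hx : x ∈ ((K ⊔ E : Subgroup L) : Set L) := by rw [hsup]; trivial
  have hy : y ∈ ((K ⊔ E : Subgroup L) : Set L) := by rw [hsup]; trivial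
  rw [Subgroup.normal_mul] at hx hy
  obtain ⟨k, hk, e, he, rfl⟩ := Set.mem_mul.1 hx
  obtain ⟨k', hk', e', he', rfl⟩ := Set.mem_mul.1 hy
  have hcen : ∀ k ∈ K, ∀ g : L ⧸ ⁅K, (⊤ : Subgroup L)⁆,
      (QuotientGroup.mk k : L ⧸ ⁅K, (⊤ : Subgroup L)⁆) * g = g * QuotientGroup.mk k := by
    intro k hk g
    obtain ⟨g, rfl⟩ := QuotientGroup.mk_surjective g
    rw [← QuotientGroup.mk_mul, ← QuotientGroup.mk_mul, QuotientGroup.eq]
    have h2 : (k * g)⁻¹ * (g * k) = ⁅g⁻¹, k⁻¹⁆ := by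
      simp only [commutatorElement_def]; group
    rw [h2, Subgroup.commutator_comm]
    exact Subgroup.commutator_mem_commutator (Subgroup.mem_top _) (K.inv_mem hk)
  have hq : (QuotientGroup.mk ⁅k * e, k' * e'⁆ : L ⧸ ⁅K, (⊤ : Subgroup L)⁆) =
      QuotientGroup.mk ⁅e, e'⁆ := by
    have e1 : (QuotientGroup.mk ⁅k * e, k' * e'⁆ : L ⧸ ⁅K, (⊤ : Subgroup L)⁆) =
        ⁅(QuotientGroup.mk k : L ⧸ ⁅K, (⊤ : Subgroup L)⁆) * QuotientGroup.mk e,
          (QuotientGroup.mk k' : L ⧸ ⁅K, (⊤ : Subgroup L)⁆) * QuotientGroup.mk e'⁆ := by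
      simp only [commutatorElement_def, QuotientGroup.mk_mul, QuotientGroup.mk_inv]
    rw [e1, commElem_central_mul _ _ _ (hcen k hk), commElem_mul_central _ _ _ (hcen k' hk')]
    simp only [commutatorElement_def, QuotientGroup.mk_mul, QuotientGroup.mk_inv]
  have ht : ⁅k * e, k' * e'⁆ * ⁅e, e'⁆⁻¹ ∈ ⁅K, (⊤ : Subgroup L)⁆ := by
    rw [← QuotientGroup.eq_one_iff, QuotientGroup.mk_mul, hq, ← QuotientGroup.mk_mul,
      mul_inv_cancel, QuotientGroup.mk_one]
  have : ⁅k * e, k' * e'⁆ = (⁅k * e, k' * e'⁆ * ⁅e, e'⁆⁻¹) * ⁅e, e'⁆ := by group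
  rw [this]
  exact Subgroup.mul_mem _ (Subgroup.mem_sup_left ht)
    (Subgroup.mem_sup_right (Subgroup.commutator_mem_commutator he he'))

/-- `K = [K, L]` when `K ≤ L'`, `L = K E`, `K ∩ E = 1`. -/
theorem le_commutator_top (K E : Subgroup L) [K.Normal] (hKE : K ⊓ E = ⊥) (hsup : K ⊔ E = ⊤)
    (hK : K ≤ commutator L) : K ≤ ⁅K, (⊤ : Subgroup L)⁆ := by
  have hTn : (⁅K, (⊤ : Subgroup L)⁆).Normal := Subgroup.commutator_normal K ⊤
  intro x hx
  have h1 : x ∈ ((⁅K, (⊤ : Subgroup L)⁆ ⊔ ⁅E, E⁆ : Subgroup L) : Set L) :=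
    commutator_le_sup K E hsup (hK hx)
  rw [Subgroup.normal_mul] at h1
  obtain ⟨t, ht, c, hc, rfl⟩ := Set.mem_mul.1 h1
  have htK : t ∈ K := Subgroup.commutator_le_left K ⊤ ht
  have hcE : c ∈ E := (Subgroup.commutator_le.2 (fun a ha b hb => by
    rw [commutatorElement_def]
    exact E.mul_mem (E.mul_mem (E.mul_mem ha hb) (E.inv_mem ha)) (E.inv_mem hb))) hc
  have hcK : c ∈ K := by
    have : c = t⁻¹ * (t * c) := by group
    rw [this]; exact K.mul_mem (K.inv_mem htK) hx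
  have hc1 : c = 1 := by
    have : c ∈ K ⊓ E := ⟨hcK, hcE⟩
    rw [hKE] at this
    exact Subgroup.mem_bot.1 this
  rw [hc1, mul_one]; exact ht

/-- `[K, L] ≤ K' [K, E]` when `L = K E`. -/
theorem commutator_top_le (K E : Subgroup L) [K.Normal] (hsup : K ⊔ E = ⊤) :
    ⁅K, (⊤ : Subgroup L)⁆ ≤ ⁅K, K⁆ ⊔ ⁅K, E⁆ := by
  rw [Subgroup.commutator_le]
  intro k hk g _
  have hg : g ∈ ((K ⊔ E : Subgroup L) : Set L) := by rw [hsup]; trivial
  rw [Subgroup.normal_mul] at hg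
  obtain ⟨k', hk', e, he, rfl⟩ := Set.mem_mul.1 hg
  have e1 : ⁅k, k' * e⁆ = ⁅k, k'⁆ * (k' * ⁅k, e⁆ * k'⁻¹) := by
    simp only [commutatorElement_def]; group
  rw [e1]
  refine Subgroup.mul_mem _ (Subgroup.mem_sup_left (Subgroup.commutator_mem_commutator hk hk'))
    (Subgroup.mem_sup_right ?_)
  have hn := Cfsg.Agent.S0026.le_normalizer_commutator_left K E hk'
  exact (Subgroup.mem_normalizer_iff.1 hn _).1 (Subgroup.commutator_mem_commutator hk he)

/-- A solvable subgroup `K` with `K ≤ K' N`, `N ≤ K` normalized by `K`, equals `N`. -/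
theorem eq_of_le_commutator_sup (K N : Subgroup L) [K.Normal] (hNK : N ≤ K)
    (hnorm : K ≤ Subgroup.normalizer (N : Set L)) (hsolv : Group.IsSolvable K)
    (h : K ≤ ⁅K, K⁆ ⊔ N) : N = K := by
  have hKKn : (⁅K, K⁆).Normal := Subgroup.commutator_normal K K
  haveI : Group.IsSolvable ↥K := hsolv
  haveI hN' : (N.subgroupOf K).Normal := by
    constructor
    intro n hn g
    rw [Subgroup.mem_subgroupOf] at hn ⊢
    have := (Subgroup.mem_normalizer_iff.1 (hnorm g.2) _).1 hn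
    simpa using this
  have hperf : commutator (↥K ⧸ N.subgroupOf K) = ⊤ := by
    rw [eq_top_iff]
    intro q _
    obtain ⟨x, rfl⟩ := QuotientGroup.mk_surjective q
    have hx : (x : L) ∈ ((⁅K, K⁆ ⊔ N : Subgroup L) : Set L) := h x.2
    rw [Subgroup.normal_mul] at hx
    obtain ⟨c, hc, n, hn, hcn⟩ := Set.mem_mul.1 hx
    have hc' : c ∈ (commutator ↥K).map K.subtype := by
      rw [Subgroup.map_subtype_commutator]; exact hc
    obtain ⟨c', hc'mem, hc'eq⟩ := Subgroup.mem_map.1 hc'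
    have hx' : x = c' * ⟨n, hNK hn⟩ := by
      apply Subtype.ext
      rw [Subgroup.coe_mul]
      rw [← hcn]
      congr 1
      exact hc'eq.symm
    have hq : (QuotientGroup.mk x : ↥K ⧸ N.subgroupOf K) = QuotientGroup.mk c' := by
      rw [hx', QuotientGroup.mk_mul]
      have : (QuotientGroup.mk (⟨n, hNK hn⟩ : ↥K) : ↥K ⧸ N.subgroupOf K) = 1 := by
        rw [QuotientGroup.eq_one_iff, Subgroup.mem_subgroupOf]; exact hn
      rw [this, mul_one]
    rw [hq]
    have hmap : (commutator ↥K).map (QuotientGroup.mk' (N.subgroupOf K)) ≤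
        commutator (↥K ⧸ N.subgroupOf K) := by
      rw [commutator_def, Subgroup.map_commutator, commutator_def]
      exact Subgroup.commutator_mono le_top le_top
    exact hmap (Subgroup.mem_map_of_mem _ hc'mem)
  have hsub : Subsingleton (↥K ⧸ N.subgroupOf K) := by
    by_contra hns
    rw [not_subsingleton_iff_nontrivial] at hns
    have := Group.IsSolvable.commutator_lt_top_of_nontrivial (↥K ⧸ N.subgroupOf K)
    rw [hperf] at this
    exact lt_irrefl _ this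
  have htop : N.subgroupOf K = ⊤ := QuotientGroup.subgroup_eq_top_of_subsingleton _ hsub
  apply le_antisymm hNK
  intro x hx
  have : (⟨x, hx⟩ : ↥K) ∈ N.subgroupOf K := by rw [htop]; trivial
  rwa [Subgroup.mem_subgroupOf] at this

/-- `[K, E] = K` for a solvable normal `K ≤ L'` with complement `E`. -/
theorem commutator_compl_eq (K E : Subgroup L) [K.Normal] (hKE : K ⊓ E = ⊥)
    (hsup : K ⊔ E = ⊤) (hsolv : Group.IsSolvable K) (hK : K ≤ commutator L) : ⁅K, E⁆ = K := by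
  have hNK : ⁅K, E⁆ ≤ K := Subgroup.commutator_le_left K E
  apply eq_of_le_commutator_sup K ⁅K, E⁆ hNK
    (Cfsg.Agent.S0026.le_normalizer_commutator_left K E) hsolv
  exact (le_commutator_top K E hKE hsup hK).trans (commutator_top_le K E hsup)

/-- `C_K(E) ≤ K'` when `[K, E] = K` and the orders are coprime (norm map into `K / K'`). -/
theorem centralizer_le_commutator [Finite L] (K E : Subgroup L) [K.Normal]
    (hcop : (Nat.card K).Coprime (Nat.card E)) (hcomm : ⁅K, E⁆ = K) :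
    K ⊓ Subgroup.centralizer (E : Set L) ≤ ⁅K, K⁆ := by
  classical
  haveI : Fintype ↥E := Fintype.ofFinite _
  let τ : ↥K →* Abelianization ↥K :=
    ∏ e : ↥E, (Abelianization.of).comp (MulAut.conjNormal (e : L) : MulAut ↥K).toMonoidHom
  have hτ : ∀ x : ↥K, τ x = ∏ e : ↥E, Abelianization.of (MulAut.conjNormal (e : L) x) := by
    intro x; simp [τ]
  have hinv : ∀ (e₀ : ↥E) (x : ↥K), τ (MulAut.conjNormal (e₀ : L) x) = τ x := by
    intro e₀ x
    rw [hτ, hτ]
    apply Fintype.prod_equiv (Equiv.mulRight e₀)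
    intro e
    simp only [Equiv.coe_mulRight, Subgroup.coe_mul, map_mul, MulAut.mul_apply]
  have hker : ⁅K, E⁆ ≤ (τ.ker).map K.subtype := by
    rw [Subgroup.commutator_le]
    intro k hk e he
    have hkeK : ⁅k, e⁆ ∈ K := Subgroup.commutator_le_left K E
      (Subgroup.commutator_mem_commutator hk he)
    refine Subgroup.mem_map.2 ⟨⟨⁅k, e⁆, hkeK⟩, ?_, rfl⟩
    rw [MonoidHom.mem_ker]
    have h1 : (⟨⁅k, e⁆, hkeK⟩ : ↥K) = ⟨k, hk⟩ * (MulAut.conjNormal e (⟨k, hk⟩ : ↥K))⁻¹ := by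
      apply Subtype.ext
      simp only [Subgroup.coe_mul, Subgroup.coe_inv, MulAut.conjNormal_apply,
        commutatorElement_def]
      group
    rw [h1, map_mul, map_inv, hinv ⟨e, he⟩ ⟨k, hk⟩, mul_inv_cancel]
  intro c hc
  obtain ⟨hcK, hcE⟩ := hc
  have hc1 : τ ⟨c, hcK⟩ = 1 := by
    have h0 : c ∈ (τ.ker).map K.subtype := hker (by rw [hcomm]; exact hcK)
    obtain ⟨c', hc', hcc⟩ := Subgroup.mem_map.1 h0
    have h1 : c' = ⟨c, hcK⟩ := Subtype.ext hcc
    rw [← h1]; exact hc'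
  have hc2 : τ ⟨c, hcK⟩ = Abelianization.of (⟨c, hcK⟩ : ↥K) ^ Nat.card E := by
    rw [hτ]
    have h1 : ∀ e : ↥E, Abelianization.of (MulAut.conjNormal (e : L) (⟨c, hcK⟩ : ↥K)) =
        Abelianization.of (⟨c, hcK⟩ : ↥K) := by
      intro e
      congr 1
      apply Subtype.ext
      rw [MulAut.conjNormal_apply]
      have h2 := Subgroup.mem_centralizer_iff.1 hcE e e.2
      change (e : L) * c * (e : L)⁻¹ = c
      rw [h2]; group
    rw [Finset.prod_congr rfl (fun e _ => h1 e), Finset.prod_const, Finset.card_univ,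
      Nat.card_eq_fintype_card]
  have hc3 : Abelianization.of (⟨c, hcK⟩ : ↥K) ^ Nat.card K = 1 := by
    rw [← map_pow, pow_card_eq_one', map_one]
  have hc4 : Abelianization.of (⟨c, hcK⟩ : ↥K) = 1 := by
    have h1 : orderOf (Abelianization.of (⟨c, hcK⟩ : ↥K)) ∣ Nat.card E :=
      orderOf_dvd_of_pow_eq_one (hc2 ▸ hc1)
    have h2 := orderOf_dvd_of_pow_eq_one hc3
    have h3 := Nat.dvd_gcd h2 h1
    rw [Nat.Coprime] at hcop
    rw [hcop, Nat.dvd_one] at h3
    exact orderOf_eq_one_iff.1 h3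
  have hc5 : (⟨c, hcK⟩ : ↥K) ∈ commutator ↥K := by
    rw [← Abelianization.ker_of, MonoidHom.mem_ker]; exact hc4
  have h6 : c ∈ (commutator ↥K).map K.subtype := Subgroup.mem_map.2 ⟨_, hc5, rfl⟩
  rwa [Subgroup.map_subtype_commutator] at h6

end Cfsg.Agent.Lib.Helper70.BG13a
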