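import Mathlib
import Cfsg.Agent.Lib.Helper80.BTStmt

/-!
# S0997 piece CINV (helper70): a group of even order has an involution with odd class size
-/

set_option autoImplicit false

namespace Cfsg.Agent.Lib.Helper70.BTCINV

open Cfsg.Agent.Lib.Helper80.BTStmt

universe u

theorem main : CINV.{u} := by
  intro G _ _ h2
  have : Fact (Nat.Prime 2) := ⟨Nat.prime_two⟩
  obtain ⟨S⟩ : Nonempty (Sylow 2 G) := inferInstance
  have hSne : (S : Subgroup G) ≠ ⊥ := Sylow.ne_bot_of_dvd_card S h2
  have : Nontrivial ↥(S : Subgroup G) := (Subgroup.nontrivial_iff_ne_bot _).mpr hSne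
  have hSp : IsPGroup 2 ↥(S : Subgroup G) := S.isPGroup'
  have : Nontrivial ↥(Subgroup.center ↥(S : Subgroup G)) := hSp.center_nontrivial
  have hZp : IsPGroup 2 ↥(Subgroup.center ↥(S : Subgroup G)) := hSp.to_subgroup _
  obtain ⟨n, hn⟩ := IsPGroup.iff_card.mp hZp
  have hn0 : n ≠ 0 := by
    rintro rfl
    have h1 : Nat.card ↥(Subgroup.center ↥(S : Subgroup G)) = 1 := by simpa using hn
    have h3 := Finite.one_lt_card (α := ↥(Subgroup.center ↥(S : Subgroup G)))
    omega
  have hdvd : 2 ∣ Nat.card ↥(Subgroup.center ↥(S : Subgroup G)) := by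
    rw [hn]
    exact dvd_pow_self 2 hn0
  obtain ⟨z, hz⟩ := exists_prime_orderOf_dvd_card' 2 hdvd
  refine ⟨((z : ↥(S : Subgroup G)) : G), ?_, ?_⟩
  · rw [Subgroup.orderOf_coe, Subgroup.orderOf_coe]
    exact hz
  · have hle : (S : Subgroup G) ≤ Subgroup.centralizer ({((z : ↥(S : Subgroup G)) : G)} : Set G) := by
      intro s hs
      rw [Subgroup.mem_centralizer_iff]
      intro y hy
      rw [Set.mem_singleton_iff] at hy
      subst hy
      have h := Subgroup.mem_center_iff.mp z.2 ⟨s, hs⟩
      have h' := congrArg (Subtype.val : ↥(S : Subgroup G) → G) h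
      simpa using h'.symm
    have hdiv := Subgroup.index_dvd_of_le hle
    have hodd : Odd (S : Subgroup G).index := by
      rw [← Nat.not_even_iff_odd, even_iff_two_dvd]
      exact S.not_dvd_index
    exact Odd.of_dvd_nat hodd hdiv

end Cfsg.Agent.Lib.Helper70.BTCINV
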