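import Mathlib
import Cfsg.Agent.Lib.Helper80.BTStmt
import Cfsg.Agent.Lib.CT.PairCount

/-!
# S0997 piece GB (helper70): a signed sum of irreducible characters vanishing on the
`2`-singular elements
-/

set_option autoImplicit false

namespace Cfsg.Agent.Lib.Helper70.BTGB

open Cfsg Cfsg.Agent.Lib.Helper80.BTStmt Cfsg.Agent.Lib.CT.Wedderburn
  Cfsg.Agent.Lib.CT.PairCount
open scoped ComplexConjugate

universe u

theorem main : GB.{u} := by
  intro G _ _ b hb S ε hε hvan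
  classical
  have : Fintype G := Fintype.ofFinite G
  have hΦ1 : (∑ χ ∈ S, (ε χ : ℂ) * (χ : G → ℂ) 1) =
      ((∑ χ ∈ S, ε χ * (charDegree (χ : G → ℂ) : ℤ) : ℤ) : ℂ) := by
    push_cast
    apply Finset.sum_congr rfl
    intro χ _
    rw [char_natCast_charDegree (isCharacter_of_irr χ.2)]
  refine ⟨?_, ?_⟩
  · have : Fact (Nat.Prime 2) := ⟨Nat.prime_two⟩
    obtain ⟨Q⟩ : Nonempty (Sylow 2 G) := inferInstance
    have : Fintype ↥(Q : Subgroup G) := Fintype.ofFinite _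
    have h1 : ∑ w : ↥(Q : Subgroup G), (∑ χ ∈ S, (ε χ : ℂ) * (χ : G → ℂ) (w : G)) =
        ∑ χ ∈ S, (ε χ : ℂ) * (χ : G → ℂ) 1 := by
      rw [Finset.sum_eq_single (1 : ↥(Q : Subgroup G))]
      · rfl
      · intro w _ hw
        apply hvan
        obtain ⟨k, hk⟩ := (IsPGroup.iff_orderOf.mp Q.isPGroup') w
        rw [Subgroup.orderOf_coe, hk]
        have hk0 : k ≠ 0 := by
          rintro rfl
          rw [pow_zero, orderOf_eq_one_iff] at hk
          exact hw hk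
        exact dvd_pow_self 2 hk0
      · intro h
        exact absurd (Finset.mem_univ _) h
    choose m hm using fun χ : IrrCharacter G =>
      char_sum_subgroup (isCharacter_of_irr χ.2) (Q : Subgroup G)
    have h2 : ∑ w : ↥(Q : Subgroup G), (∑ χ ∈ S, (ε χ : ℂ) * (χ : G → ℂ) (w : G)) =
        (((Nat.card ↥(Q : Subgroup G) : ℤ) * ∑ χ ∈ S, ε χ * (m χ : ℤ) : ℤ) : ℂ) := by
      rw [Finset.sum_comm]
      push_cast
      rw [Finset.mul_sum]
      apply Finset.sum_congr rfl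
      intro χ _
      rw [← Finset.mul_sum, hm χ]
      ring
    have h3 : (∑ χ ∈ S, ε χ * (charDegree (χ : G → ℂ) : ℤ)) =
        (Nat.card ↥(Q : Subgroup G) : ℤ) * ∑ χ ∈ S, ε χ * (m χ : ℤ) := by
      have h : ((∑ χ ∈ S, ε χ * (charDegree (χ : G → ℂ) : ℤ) : ℤ) : ℂ) =
          (((Nat.card ↥(Q : Subgroup G) : ℤ) * ∑ χ ∈ S, ε χ * (m χ : ℤ) : ℤ) : ℂ) := by
        rw [← hΦ1, ← h1, h2]
      exact_mod_cast h
    have h4 : 2 ^ b ∣ Nat.card ↥(Q : Subgroup G) := Q.pow_dvd_card_of_pow_dvd_card hb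
    rw [h3]
    exact Dvd.dvd.mul_right (by exact_mod_cast h4) _
  · have horth : ∀ χ ψ : IrrCharacter G, ∑ g : G, (χ : G → ℂ) g * conj ((ψ : G → ℂ) g) =
        if χ = ψ then (Nat.card G : ℂ) else 0 := by
      intro χ ψ
      have h := irr_orthonormal χ ψ
      unfold classInner at h
      have hne : (Nat.card G : ℂ) ≠ 0 := Nat.cast_ne_zero.mpr Nat.card_pos.ne'
      by_cases hχψ : χ = ψ
      · rw [if_pos hχψ] at h ⊢
        field_simp at h
        exact h
      · rw [if_neg hχψ] at h ⊢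
        exact (mul_eq_zero.mp h).resolve_left (inv_ne_zero hne)
    have h5 : ∑ g : G, (∑ χ ∈ S, (ε χ : ℂ) * (χ : G → ℂ) g) *
        conj (∑ χ ∈ S, (ε χ : ℂ) * (χ : G → ℂ) g) = (Nat.card G : ℂ) * (S.card : ℂ) := by
      have e1 : ∀ g : G, (∑ χ ∈ S, (ε χ : ℂ) * (χ : G → ℂ) g) *
          conj (∑ χ ∈ S, (ε χ : ℂ) * (χ : G → ℂ) g) =
          ∑ χ ∈ S, ∑ ψ ∈ S, (ε χ : ℂ) * (ε ψ : ℂ) *
            ((χ : G → ℂ) g * conj ((ψ : G → ℂ) g)) := by
        intro g
        rw [map_sum, Finset.sum_mul_sum]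
        apply Finset.sum_congr rfl
        intro χ _
        apply Finset.sum_congr rfl
        intro ψ _
        rw [map_mul, map_intCast]
        ring
      simp_rw [e1]
      rw [Finset.sum_comm]
      have e2 : ∀ χ ∈ S, ∑ g : G, ∑ ψ ∈ S, (ε χ : ℂ) * (ε ψ : ℂ) *
          ((χ : G → ℂ) g * conj ((ψ : G → ℂ) g)) = (Nat.card G : ℂ) := by
        intro χ hχ
        rw [Finset.sum_comm]
        have e3 : ∀ ψ ∈ S, ∑ g : G, (ε χ : ℂ) * (ε ψ : ℂ) *
            ((χ : G → ℂ) g * conj ((ψ : G → ℂ) g)) =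
            if χ = ψ then (Nat.card G : ℂ) else 0 := by
          intro ψ _
          rw [← Finset.mul_sum, horth]
          by_cases hχψ : χ = ψ
          · subst hχψ
            rw [if_pos rfl]
            rcases hε χ hχ with h | h <;> rw [h] <;> push_cast <;> ring
          · rw [if_neg hχψ, mul_zero]
        rw [Finset.sum_congr rfl e3, Finset.sum_ite_eq, if_pos hχ]
      rw [Finset.sum_congr rfl e2, Finset.sum_const, nsmul_eq_mul, mul_comm]
    -- pass to real numbers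
    have h6 : ∑ g : G, Complex.normSq (∑ χ ∈ S, (ε χ : ℂ) * (χ : G → ℂ) g) =
        (Nat.card G : ℝ) * (S.card : ℝ) := by
      have h : ((∑ g : G, Complex.normSq (∑ χ ∈ S, (ε χ : ℂ) * (χ : G → ℂ) g) : ℝ) : ℂ) =
          (((Nat.card G : ℝ) * (S.card : ℝ) : ℝ) : ℂ) := by
        push_cast
        rw [← h5]
        apply Finset.sum_congr rfl
        intro g _
        rw [Complex.mul_conj]
      exact_mod_cast h
    have h7 : Complex.normSq (∑ χ ∈ S, (ε χ : ℂ) * (χ : G → ℂ) 1) ≤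
        ∑ g : G, Complex.normSq (∑ χ ∈ S, (ε χ : ℂ) * (χ : G → ℂ) g) :=
      Finset.single_le_sum (f := fun g : G => Complex.normSq (∑ χ ∈ S, (ε χ : ℂ) * (χ : G → ℂ) g))
        (fun g _ => Complex.normSq_nonneg _) (Finset.mem_univ 1)
    rw [hΦ1, h6, Complex.normSq_intCast] at h7
    have h8 : ((∑ χ ∈ S, ε χ * (charDegree (χ : G → ℂ) : ℤ) : ℤ) : ℝ) ^ 2 ≤
        (Nat.card G : ℝ) * (S.card : ℝ) := by
      rw [pow_two]
      exact h7
    exact_mod_cast h8

end Cfsg.Agent.Lib.Helper70.BTGB
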