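import Mathlib
import Cfsg.Agent.Lib.Helper28.DxStmt

set_option autoImplicit false

/-!
helper70: piece SRGSQ of S1615 (for helper28): for a triangle-free strongly regular graph on an
even number of vertices, `μ² + 4 (k - μ)` is a perfect square (determinant of `(2A + μ)²`).
-/

namespace Cfsg.Agent.Lib.Helper70.DxSRGSQ

universe u

theorem main : Cfsg.Agent.Lib.Helper28.DxStmt.SrgSq.{u} := by
  unfold Cfsg.Agent.Lib.Helper28.DxStmt.SrgSq
  intro V _ _ R _ k μ hsymm hirr hk htri hmu hev hcount hμk hk0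
  obtain ⟨D, hD⟩ : ∃ D : ℕ, D = μ * μ + 4 * (k - μ) := ⟨_, rfl⟩
  have hDpos : 0 < D := by
    rw [hD]
    rcases Nat.eq_zero_or_pos μ with h | h
    · subst h; omega
    · have : 0 < μ * μ := Nat.mul_pos h h
      omega
  have hDq : (D : ℚ) = (μ : ℚ) ^ 2 + 4 * (k : ℚ) - 4 * (μ : ℚ) := by
    rw [hD]; push_cast [Nat.cast_sub hμk]; ring
  have hDne : (D : ℚ) ≠ 0 := by exact_mod_cast hDpos.ne'
  obtain ⟨A, hAdef⟩ : ∃ A : Matrix V V ℚ, A = Matrix.of fun a b => if R a b then (1 : ℚ) else 0 :=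
    ⟨_, rfl⟩
  obtain ⟨J, hJdef⟩ : ∃ J : Matrix V V ℚ, J = Matrix.of fun _ _ => (1 : ℚ) := ⟨_, rfl⟩
  have hA2 : A * A = (k : ℚ) • (1 : Matrix V V ℚ) + (μ : ℚ) • (J - 1 - A) := by
    ext a b
    simp only [Matrix.mul_apply, hAdef, hJdef, Matrix.of_apply, Matrix.add_apply,
      Matrix.smul_apply, Matrix.sub_apply, Matrix.one_apply, smul_eq_mul]
    have hsum : (∑ u, (if R a u then (1 : ℚ) else 0) * (if R u b then (1 : ℚ) else 0)) =
        ((Finset.univ.filter (fun u => R a u ∧ R b u)).card : ℚ) := by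
      rw [Finset.card_filter]
      push_cast
      apply Finset.sum_congr rfl
      intro u _
      by_cases h1 : R a u <;> by_cases h2 : R u b
      · have h3 : R b u := hsymm _ _ h2
        simp [h1, h2, h3]
      · have h3 : ¬ R b u := fun h => h2 (hsymm _ _ h)
        simp [h1, h2, h3]
      · simp [h1]
      · simp [h1]
    rw [hsum]
    by_cases hab : a = b
    · subst hab
      have : (Finset.univ.filter (fun u => R a u ∧ R a u)) = Finset.univ.filter (fun u => R a u) := by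
        ext u; simp
      rw [this, hk a]
      simp [hirr a]
    · by_cases hR : R a b
      · have : (Finset.univ.filter (fun u => R a u ∧ R b u)) = ∅ := by
          apply Finset.filter_eq_empty_iff.mpr
          intro u _
          exact htri a b hab hR u
        rw [this]
        simp [hab, hR]
      · rw [hmu a b hab hR]
        simp [hab, hR]
  obtain ⟨N, hNdef⟩ : ∃ N : Matrix V V ℚ, N = (2 : ℚ) • A + (μ : ℚ) • (1 : Matrix V V ℚ) :=
    ⟨_, rfl⟩
  have hN2 : N * N = (D : ℚ) • (1 : Matrix V V ℚ) + (4 * (μ : ℚ)) • J := by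
    have h1 : N * N = (4 : ℚ) • (A * A) + (4 * (μ : ℚ)) • A
        + ((μ : ℚ) ^ 2) • (1 : Matrix V V ℚ) := by
      rw [hNdef]
      simp only [add_mul, mul_add, smul_mul_assoc, mul_smul_comm, one_mul, mul_one, smul_smul,
        smul_add]
      module
    rw [h1, hA2, hDq]
    module
  have hdet : (N * N).det =
      (D : ℚ) ^ Fintype.card V * (1 + 4 * (μ : ℚ) * (Fintype.card V : ℚ) / (D : ℚ)) := by
    rw [hN2]
    have e : (D : ℚ) • (1 : Matrix V V ℚ) + (4 * (μ : ℚ)) • J =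
        (D : ℚ) • ((1 : Matrix V V ℚ) +
          Matrix.replicateCol Unit (fun _ : V => 4 * (μ : ℚ) / (D : ℚ)) *
            Matrix.replicateRow Unit (fun _ : V => (1 : ℚ))) := by
      ext a b
      simp only [hJdef, Matrix.add_apply, Matrix.smul_apply, Matrix.one_apply, Matrix.of_apply,
        Matrix.mul_apply, Matrix.replicateCol_apply, Matrix.replicateRow_apply, smul_eq_mul,
        Finset.univ_unique, Finset.sum_singleton]
      field_simp
    rw [e, Matrix.det_smul, Matrix.det_one_add_replicateCol_mul_replicateRow]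
    simp only [dotProduct, one_mul, Finset.sum_const, Finset.card_univ, nsmul_eq_mul]
    ring
  have hdetN : (N * N).det = N.det ^ 2 := by rw [Matrix.det_mul, sq]
  obtain ⟨m, hm⟩ := hev
  have hcountq : (μ : ℚ) * (Fintype.card V : ℚ) + k = μ + μ * k + k * k := by
    exact_mod_cast hcount
  have key : N.det ^ 2 * (D : ℚ) = ((D : ℚ) ^ m * ((μ : ℚ) + 2 * k)) ^ 2 := by
    rw [← hdetN, hdet, hm]
    have h2 : (D : ℚ) ^ (m + m) * (1 + 4 * (μ : ℚ) * ((m + m : ℕ) : ℚ) / (D : ℚ)) * (D : ℚ) =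
        (D : ℚ) ^ (m + m) * ((D : ℚ) + 4 * (μ : ℚ) * ((m + m : ℕ) : ℚ)) := by
      field_simp
    rw [h2]
    have h3 : (D : ℚ) + 4 * (μ : ℚ) * ((m + m : ℕ) : ℚ) = ((μ : ℚ) + 2 * k) ^ 2 := by
      rw [hm] at hcountq
      rw [hDq]
      linear_combination 4 * hcountq
    rw [h3, pow_add]
    ring
  have hμ2k : ((μ : ℚ) + 2 * k) ≠ 0 := by
    have : (0 : ℚ) < k := by exact_mod_cast hk0
    have : (0 : ℚ) ≤ μ := Nat.cast_nonneg μ
    intro h; linarith
  have hdet0 : N.det ≠ 0 := by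
    intro h
    rw [h] at key
    have h4 : ((D : ℚ) ^ m * ((μ : ℚ) + 2 * k)) ^ 2 ≠ 0 :=
      pow_ne_zero _ (mul_ne_zero (pow_ne_zero _ hDne) hμ2k)
    apply h4
    rw [← key]; ring
  have hsq : IsSquare (D : ℚ) := by
    refine ⟨(D : ℚ) ^ m * ((μ : ℚ) + 2 * k) / N.det, ?_⟩
    field_simp
    linarith [key]
  obtain ⟨s, hs⟩ := Rat.isSquare_natCast_iff.mp hsq
  refine ⟨s, ?_⟩
  rw [hD] at hs
  generalize s * s = x at hs ⊢
  generalize μ * μ = y at hs ⊢
  omega

end Cfsg.Agent.Lib.Helper70.DxSRGSQ
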