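import Mathlib
import Cfsg.Prelude.Def_Transfer

set_option autoImplicit false

/-!
# Tools for the Hall–Wielandt transfer theorem (part 1)

* `engel_prod` : if `z` normalizes `D`, `f` is multiplicative on `D` with values in an abelian
  group of exponent `p`, and `[d, z, …, z]` (`p - 1` entries `z`) is trivial, then
  `∏ i < p, f (z⁻ⁱ d zⁱ) = 1`.
* `prod_eq_prod_fixed` : for a `p`-group `S` acting on a finite set `X` and `F : X → A` with
  `∏ i < p, F (zⁱ • x) = 1` for all `z, x`, the product of `F` over `X` equals the product over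
  the fixed points.
* `exists_mem_normalizer_not_mem` : if `Q` is normalized by the `p`-group `P`, `D ≤ P` and `Q ≰ D`
  then some element of `Q` outside `D` normalizes `D`.
-/

namespace Cfsg.Agent.Lib.Helper70.HW1

open Finset
open scoped commutatorElement

section engel

variable {G : Type*} [Group G] {A : Type*} [CommGroup A]

theorem sum_range_choose (n j : ℕ) : ∑ i ∈ range n, i.choose j = n.choose (j + 1) := by
  induction n with
  | zero => simp
  | succ n ih =>
    rw [Finset.sum_range_succ, ih, Nat.choose_succ_succ, add_comm]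

theorem pascal_prod (c : ℕ → A) (i : ℕ) :
    (∏ j ∈ range (i + 1), c j ^ (i.choose j)) * (∏ j ∈ range (i + 1), c (j + 1) ^ (i.choose j)) =
      ∏ j ∈ range (i + 1 + 1), c j ^ ((i + 1).choose j) := by
  rw [Finset.prod_range_succ' (fun j => c j ^ ((i + 1).choose j)) (i + 1)]
  rw [Finset.prod_range_succ' (fun j => c j ^ (i.choose j)) i]
  have e3 : ∏ j ∈ range (i + 1), c (j + 1) ^ ((i + 1).choose (j + 1)) =
      (∏ j ∈ range (i + 1), c (j + 1) ^ (i.choose j)) *
        ∏ j ∈ range (i + 1), c (j + 1) ^ (i.choose (j + 1)) := by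
    rw [← Finset.prod_mul_distrib]
    apply Finset.prod_congr rfl
    intro j _
    rw [Nat.choose_succ_succ, pow_add]
  rw [e3, Finset.prod_range_succ (fun j => c (j + 1) ^ (i.choose (j + 1))) i]
  simp only [Nat.choose_zero_right, pow_one, Nat.choose_succ_self, pow_zero, mul_one]
  ac_rfl

/-- Newton's forward difference formula in multiplicative form. -/
theorem newton (z : G) (D : Subgroup G) (hz : ∀ y ∈ D, z⁻¹ * y * z ∈ D) (f : G → A)
    (hf : ∀ x ∈ D, ∀ y ∈ D, f (x * y) = f x * f y) :
    ∀ (i : ℕ) (y : G), y ∈ D → f ((fun y : G => z⁻¹ * y * z)^[i] y) =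
      ∏ j ∈ range (i + 1), f ((fun y : G => y⁻¹ * z⁻¹ * y * z)^[j] y) ^ (i.choose j) := by
  have hδ : ∀ y ∈ D, y⁻¹ * z⁻¹ * y * z ∈ D := by
    intro y hy
    have : y⁻¹ * z⁻¹ * y * z = y⁻¹ * (z⁻¹ * y * z) := by group
    rw [this]
    exact D.mul_mem (D.inv_mem hy) (hz y hy)
  have hδi : ∀ (j : ℕ) (y : G), y ∈ D → (fun y : G => y⁻¹ * z⁻¹ * y * z)^[j] y ∈ D := by
    intro j
    induction j with
    | zero => intro y hy; exact hy
    | succ j ih => intro y hy; rw [Function.iterate_succ_apply]; exact ih _ (hδ y hy)
  have hTi : ∀ (j : ℕ) (y : G), y ∈ D → (fun y : G => z⁻¹ * y * z)^[j] y ∈ D := by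
    intro j
    induction j with
    | zero => intro y hy; exact hy
    | succ j ih => intro y hy; rw [Function.iterate_succ_apply]; exact ih _ (hz y hy)
  -- `T^i` is multiplicative
  have hTmul : ∀ (i : ℕ) (x y : G), (fun y : G => z⁻¹ * y * z)^[i] (x * y) =
      (fun y : G => z⁻¹ * y * z)^[i] x * (fun y : G => z⁻¹ * y * z)^[i] y := by
    intro i
    induction i with
    | zero => intro x y; rfl
    | succ i ih =>
      intro x y
      rw [Function.iterate_succ_apply, Function.iterate_succ_apply, Function.iterate_succ_apply,
        ← ih]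
      congr 1
      group
  intro i
  induction i with
  | zero => intro y hy; simp
  | succ i ih =>
    intro y hy
    have e1 : z⁻¹ * y * z = y * (y⁻¹ * z⁻¹ * y * z) := by group
    rw [Function.iterate_succ_apply, e1, hTmul, hf _ (hTi i y hy) _ (hTi i _ (hδ y hy)),
      ih y hy, ih _ (hδ y hy)]
    -- combine the two products
    have e2 : ∏ j ∈ range (i + 1), f ((fun y : G => y⁻¹ * z⁻¹ * y * z)^[j] (y⁻¹ * z⁻¹ * y * z)) ^ (i.choose j)
        = ∏ j ∈ range (i + 1), f ((fun y : G => y⁻¹ * z⁻¹ * y * z)^[j + 1] y) ^ (i.choose j) := by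
      apply Finset.prod_congr rfl
      intro j _
      rw [Function.iterate_succ_apply]
    rw [e2]
    exact pascal_prod (fun j => f ((fun y : G => y⁻¹ * z⁻¹ * y * z)^[j] y)) i

theorem engel_prod {p : ℕ} (hp : p.Prime) (hA : ∀ a : A, a ^ p = 1) (z : G) (D : Subgroup G)
    (hz : ∀ y ∈ D, z⁻¹ * y * z ∈ D) (f : G → A)
    (hf : ∀ x ∈ D, ∀ y ∈ D, f (x * y) = f x * f y) (d : G) (hd : d ∈ D)
    (hE : (fun y : G => y⁻¹ * z⁻¹ * y * z)^[p - 1] d = 1) :
    ∏ i ∈ range p, f ((z ^ i)⁻¹ * d * z ^ i) = 1 := by
  have hf1 : f 1 = 1 := by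
    have := hf 1 D.one_mem 1 D.one_mem
    rw [mul_one] at this
    exact (mul_eq_left.1 this.symm)
  have hT : ∀ i : ℕ, (fun y : G => z⁻¹ * y * z)^[i] d = (z ^ i)⁻¹ * d * z ^ i := by
    intro i
    induction i with
    | zero => simp
    | succ i ih =>
      rw [Function.iterate_succ_apply', ih, pow_succ]
      group
  have h1 : ∏ i ∈ range p, f ((z ^ i)⁻¹ * d * z ^ i) =
      ∏ i ∈ range p, ∏ j ∈ range p, f ((fun y : G => y⁻¹ * z⁻¹ * y * z)^[j] d) ^ (i.choose j) := by
    apply Finset.prod_congr rfl
    intro i hi
    rw [← hT i, newton z D hz f hf i d hd]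
    apply Finset.prod_subset
    · intro j hj
      rw [Finset.mem_range] at hj hi ⊢
      omega
    · intro j _ hj
      rw [Finset.mem_range] at hj
      rw [Nat.choose_eq_zero_of_lt (by omega), pow_zero]
  rw [h1, Finset.prod_comm]
  apply Finset.prod_eq_one
  intro j hj
  rw [Finset.mem_range] at hj
  rw [Finset.prod_pow_eq_pow_sum, sum_range_choose]
  by_cases hj2 : j + 1 < p
  · obtain ⟨q, hq⟩ := hp.dvd_choose_self (Nat.succ_ne_zero j) hj2
    rw [hq, pow_mul, hA, one_pow]
  · have e : j = p - 1 := by omega
    rw [e, hE, hf1, one_pow]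

end engel

section orbit

variable {A : Type*} [CommGroup A]

/-- a cyclic step: if `z` preserves the finite set `Y`, `z ^ p` fixes `Y` pointwise and the
product of `F` over every `p`-string is trivial, then the product over `Y` is the product over
the fixed points of `z` in `Y`. -/
theorem prod_cyclic {S X : Type*} [Group S] [MulAction S X] [DecidableEq X] {p : ℕ} (hp : p.Prime)
    (z : S) (F : X → A) (hF : ∀ x : X, ∏ i ∈ range p, F (z ^ i • x) = 1) :
    ∀ (n : ℕ) (Y : Finset X), Y.card ≤ n → (∀ x ∈ Y, z • x ∈ Y) → (∀ x ∈ Y, z ^ p • x = x) →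
      ∏ x ∈ Y, F x = ∏ x ∈ Y.filter (fun x => z • x = x), F x := by
  intro n
  induction n with
  | zero =>
    intro Y hY _ _
    have : Y = ∅ := Finset.card_eq_zero.1 (by omega)
    subst this
    simp
  | succ n ih =>
    intro Y hY hzY hzp
    by_cases hall : ∀ x ∈ Y, z • x = x
    · rw [Finset.filter_true_of_mem hall]
    · push Not at hall
      obtain ⟨x₀, hx₀, hne⟩ := hall
      -- powers of `z` keep `x₀` in `Y`
      have hpow : ∀ i : ℕ, z ^ i • x₀ ∈ Y := by
        intro i
        induction i with
        | zero => simpa using hx₀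
        | succ i ih2 =>
          rw [pow_succ', mul_smul]
          exact hzY _ ih2
      -- no point of the string is fixed
      have hnofix : ∀ i : ℕ, z • (z ^ i • x₀) ≠ z ^ i • x₀ := by
        intro i h
        apply hne
        have h1 : z ^ i • (z • x₀) = z ^ i • x₀ := by
          rw [← mul_smul, ← pow_succ, pow_succ', mul_smul]
          exact h
        exact (MulAction.injective (z ^ i)) h1
      -- the string is injective
      have hinj : ∀ i ∈ range p, ∀ j ∈ range p, z ^ i • x₀ = z ^ j • x₀ → i = j := by
        have key : ∀ i j : ℕ, i < j → j < p → z ^ i • x₀ ≠ z ^ j • x₀ := by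
          intro i j hij hjp h
          -- `z^(j-i)` fixes `x₀`
          have h1 : z ^ (j - i) • x₀ = x₀ := by
            have : z ^ j = z ^ i * z ^ (j - i) := by
              rw [← pow_add]; congr 1; omega
            rw [this, mul_smul] at h
            exact (MulAction.injective (z ^ i) h).symm
          have h2 : z ^ (j - i) ∈ MulAction.stabilizer S x₀ := h1
          have h3 : z ^ p ∈ MulAction.stabilizer S x₀ := hzp x₀ hx₀
          have hcop : Nat.Coprime (j - i) p := by
            apply Nat.Coprime.symm
            rw [Nat.Prime.coprime_iff_not_dvd hp]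
            intro hd
            have := Nat.le_of_dvd (by omega) hd
            omega
          have h4 : z ∈ MulAction.stabilizer S x₀ := by
            have hg := Nat.gcd_eq_gcd_ab (j - i) p
            rw [hcop] at hg
            have e : z = (z ^ (j - i)) ^ (Nat.gcdA (j - i) p) * (z ^ p) ^ (Nat.gcdB (j - i) p) := by
              rw [← zpow_natCast z (j - i), ← zpow_natCast z p, ← zpow_mul, ← zpow_mul, ← zpow_add,
                ← hg]
              simp
            rw [e]
            exact Subgroup.mul_mem _ (Subgroup.zpow_mem _ h2 _) (Subgroup.zpow_mem _ h3 _)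
          exact hne h4
        intro i hi j hj h
        rw [Finset.mem_range] at hi hj
        rcases lt_trichotomy i j with hij | hij | hij
        · exact absurd h (key i j hij hj)
        · exact hij
        · exact absurd h.symm (key j i hij hi)
      set O : Finset X := (range p).image (fun i => z ^ i • x₀) with hO
      have hOY : O ⊆ Y := by
        intro x hx
        rw [hO, Finset.mem_image] at hx
        obtain ⟨i, _, rfl⟩ := hx
        exact hpow i
      have hOprod : ∏ x ∈ O, F x = 1 := by
        rw [hO, Finset.prod_image hinj]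
        exact hF x₀
      have hx₀O : x₀ ∈ O := by
        rw [hO, Finset.mem_image]
        exact ⟨0, Finset.mem_range.2 hp.pos, by simp⟩
      have hcard : (Y \ O).card ≤ n := by
        have h1 : (Y \ O).card < Y.card := Finset.card_lt_card (by
          rw [Finset.ssubset_iff_of_subset Finset.sdiff_subset]
          exact ⟨x₀, hx₀, fun h => (Finset.mem_sdiff.1 h).2 hx₀O⟩)
        omega
      have hclosed : ∀ x ∈ Y \ O, z • x ∈ Y \ O := by
        intro x hx
        rw [Finset.mem_sdiff] at hx ⊢
        refine ⟨hzY x hx.1, fun h => hx.2 ?_⟩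
        rw [hO, Finset.mem_image] at h
        obtain ⟨i, _, hi⟩ := h
        -- x = z^(p-1) • z • x = z^(p-1+i) • x₀
        have h1 : x = z ^ (p - 1 + i) • x₀ := by
          rw [pow_add, mul_smul, hi, ← mul_smul, ← pow_succ]
          have : p - 1 + 1 = p := by have := hp.pos; omega
          rw [this, hzp x hx.1]
        -- reduce the exponent mod p
        have h2 : ∀ k : ℕ, z ^ k • x₀ = z ^ (k % p) • x₀ := by
          intro k
          conv_lhs => rw [← Nat.mod_add_div k p]
          rw [pow_add, mul_smul, pow_mul]
          congr 1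
          have : ∀ q : ℕ, (z ^ p) ^ q • x₀ = x₀ := by
            intro q
            induction q with
            | zero => simp
            | succ q ihq => rw [pow_succ, mul_smul, hzp x₀ hx₀, ihq]
          exact this _
        rw [h1, h2, hO, Finset.mem_image]
        exact ⟨(p - 1 + i) % p, Finset.mem_range.2 (Nat.mod_lt _ hp.pos), rfl⟩
      have hfilt : Y.filter (fun x => z • x = x) = (Y \ O).filter (fun x => z • x = x) := by
        ext x
        simp only [Finset.mem_filter, Finset.mem_sdiff]
        constructor
        · rintro ⟨hxY, hfix⟩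
          refine ⟨⟨hxY, fun h => ?_⟩, hfix⟩
          rw [hO, Finset.mem_image] at h
          obtain ⟨i, _, rfl⟩ := h
          exact hnofix i hfix
        · rintro ⟨⟨hxY, _⟩, hfix⟩
          exact ⟨hxY, hfix⟩
      rw [← Finset.prod_sdiff hOY, hOprod, mul_one, hfilt]
      exact ih (Y \ O) hcard hclosed (fun x hx => hzp x (Finset.mem_sdiff.1 hx).1)

universe u

/-- For a finite `p`-group `S` acting on a finite set `X` and `F : X → A` whose product over every
`p`-string `x, z • x, …, z^(p-1) • x` is trivial, the product of `F` over `X` is the product over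
the fixed points of `S`. -/
theorem prod_eq_prod_fixed {p : ℕ} [hp : Fact p.Prime] {X : Type*} [Fintype X] [DecidableEq X]
    (F : X → A) :
    ∀ (n : ℕ) (S : Type u) [Group S] [Finite S] [MulAction S X], IsPGroup p S → Nat.card S ≤ n →
      (∀ z : S, ∀ x : X, ∏ i ∈ range p, F (z ^ i • x) = 1) →
      ∃ Y : Finset X, (∀ x, x ∈ Y ↔ ∀ s : S, s • x = x) ∧ ∏ x, F x = ∏ x ∈ Y, F x := by
  intro n
  induction n with
  | zero =>
    intro S _ _ _ _ hn _
    have := Nat.card_pos (α := S)
    omega
  | succ n ih =>
    intro S _ _ _ hS hn hF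
    by_cases h1 : Nat.card S = 1
    · haveI : Subsingleton S := (Nat.card_eq_one_iff_unique.1 h1).1
      refine ⟨Finset.univ, fun x => ?_, rfl⟩
      simp only [Finset.mem_univ, true_iff]
      intro s
      rw [Subsingleton.elim s 1, one_smul]
    · obtain ⟨k, hk⟩ := IsPGroup.iff_card.1 hS
      have hk0 : k ≠ 0 := by
        rintro rfl
        exact h1 (by simpa using hk)
      obtain ⟨S', hS'⟩ := Sylow.exists_subgroup_card_pow_prime p
        (show p ^ (k - 1) ∣ Nat.card S by rw [hk]; exact pow_dvd_pow p (by omega))
      have hidx : S'.index = p := by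
        have h2 := S'.card_mul_index
        rw [hS', hk] at h2
        have e : p ^ k = p ^ (k - 1) * p := by
          rw [← pow_succ]; congr 1; omega
        rw [e] at h2
        exact Nat.eq_of_mul_eq_mul_left (pow_pos hp.out.pos _) h2
      haveI hS'n : S'.Normal := by
        apply Subgroup.normal_of_index_eq_minFac_card
        rw [hidx, hk, Nat.Prime.pow_minFac hp.out hk0]
      have hne : S' ≠ ⊤ := by
        intro h
        rw [h, Subgroup.index_top] at hidx
        exact hp.out.one_lt.ne hidx
      obtain ⟨z, -, hz⟩ := SetLike.exists_of_lt (lt_top_iff_ne_top.2 hne)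
      have hcard' : Nat.card S' ≤ n := by
        have h2 : Nat.card S' < Nat.card S := by
          rw [hS', hk]
          exact Nat.pow_lt_pow_right hp.out.one_lt (by omega)
        omega
      obtain ⟨Y', hY', hprod'⟩ := ih S' (hS.to_subgroup S') hcard' (fun z' x => by
        have := hF (z' : S) x
        exact this)
      have hzp : z ^ p ∈ S' := by
        have := Subgroup.pow_index_mem S' z
        rwa [hidx] at this
      have hstep := prod_cyclic hp.out z F (hF z) Y'.card Y' le_rfl
        (fun x hx => by
          rw [hY'] at hx ⊢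
          intro s
          have h2 : z⁻¹ * (s : S) * z ∈ S' := by
            have := hS'n.conj_mem (s : S) s.2 z⁻¹
            simpa using this
          have h3 := hx ⟨z⁻¹ * (s : S) * z, h2⟩
          have h4 : (z⁻¹ * (s : S) * z) • x = x := h3
          show (s : S) • z • x = z • x
          have e : (s : S) • z • x = z • ((z⁻¹ * (s : S) * z) • x) := by
            rw [← mul_smul, ← mul_smul]
            congr 1
            group
          rw [e, h4])
        (fun x hx => by
          rw [hY'] at hx
          exact hx ⟨z ^ p, hzp⟩)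
      refine ⟨Y'.filter (fun x => z • x = x), fun x => ?_, hprod'.trans hstep⟩
      rw [Finset.mem_filter, hY']
      constructor
      · rintro ⟨hx1, hx2⟩
        have hle : S' ≤ MulAction.stabilizer S x := fun s hs => hx1 ⟨s, hs⟩
        have hzK : z ∈ MulAction.stabilizer S x := hx2
        have hdvd : (MulAction.stabilizer S x).index ∣ p := by
          rw [← hidx]
          exact Subgroup.index_dvd_of_le hle
        have htop : MulAction.stabilizer S x = ⊤ := by
          rcases (Nat.dvd_prime hp.out).1 hdvd with h | h
          · exact Subgroup.index_eq_one.1 h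
          · exfalso
            have h2 := (MulAction.stabilizer S x).card_mul_index
            have h3 := S'.card_mul_index
            rw [h] at h2
            rw [hidx] at h3
            have h4 : Nat.card (MulAction.stabilizer S x) = Nat.card S' :=
              Nat.eq_of_mul_eq_mul_right hp.out.pos (h2.trans h3.symm)
            have h5 : S' = MulAction.stabilizer S x :=
              Subgroup.eq_of_le_of_card_ge hle h4.le
            exact hz (h5 ▸ hzK)
        intro s
        have : s ∈ MulAction.stabilizer S x := by rw [htop]; trivial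
        exact this
      · intro h
        exact ⟨fun s => h s, h z⟩

end orbit

section normalizer

variable {G : Type*} [Group G] [Finite G]

/-- If `Q` is normalized by the `p`-group `P ≥ Q`, `D ≤ P` and `Q ≰ D`, then some element of `Q`
outside `D` normalizes `D`. -/
theorem exists_mem_normalizer_not_mem {p : ℕ} [Fact p.Prime] (P Q D : Subgroup G)
    (hP : IsPGroup p P) (hQP : Q ≤ P) (hQn : P ≤ Subgroup.normalizer (Q : Set G)) (hD : D ≤ P)
    (hQD : ¬ Q ≤ D) : ∃ z ∈ Q, z ∈ Subgroup.normalizer (D : Set G) ∧ z ∉ D := by
  let L : ℕ → Subgroup G := fun j => Nat.rec Q (fun _ X => ⁅X, P⁆) j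
  have hL0 : L 0 = Q := rfl
  have hLs : ∀ j, L (j + 1) = ⁅L j, P⁆ := fun j => rfl
  have hQQ : ⁅Q, P⁆ ≤ Q := by
    rw [Subgroup.commutator_le]
    intro q hq x hx
    have h1 := (Subgroup.mem_normalizer_iff.1 (hQn hx) q⁻¹).1 (Q.inv_mem hq)
    have e : ⁅q, x⁆ = q * (x * q⁻¹ * x⁻¹) := by
      rw [commutatorElement_def]; group
    rw [e]
    exact Q.mul_mem hq h1
  have hLQ : ∀ j, L j ≤ Q := by
    intro j
    induction j with
    | zero => exact le_rfl
    | succ j ih => rw [hLs]; exact (Subgroup.commutator_mono ih le_rfl).trans hQQ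
  have hLlcs : ∀ j, L j ≤ P.lowerCentralSeries j := by
    intro j
    induction j with
    | zero => exact hQP
    | succ j ih =>
      rw [hLs, Subgroup.lowerCentralSeries_succ]
      exact Subgroup.commutator_mono ih le_rfl
  haveI : Group.IsNilpotent P := hP.isNilpotent
  obtain ⟨n, hn⟩ := (Subgroup.isNilpotent_iff_lowerCentralSeries P).1 inferInstance
  have key : ∀ k j : ℕ, j + k = n →
      (L j ≤ D ∨ ∃ z ∈ Q, z ∈ Subgroup.normalizer (D : Set G) ∧ z ∉ D) := by
    intro k
    induction k with
    | zero =>
      intro j hj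
      left
      have : j = n := by omega
      subst this
      exact (hLlcs j).trans (hn ▸ bot_le)
    | succ k ih =>
      intro j hj
      rcases ih (j + 1) (by omega) with h | h
      · rcases Classical.em (L j ≤ D) with hj2 | hj2
        · exact Or.inl hj2
        · right
          obtain ⟨z, hzL, hzD⟩ := SetLike.not_le_iff_exists.1 hj2
          refine ⟨z, hLQ j hzL, ?_, hzD⟩
          have hconj : ∀ w ∈ L j, ∀ e ∈ D, w * e * w⁻¹ ∈ D := by
            intro w hw e he
            have h1 : ⁅w, e⁆ ∈ D := h (by
              rw [hLs]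
              exact Subgroup.commutator_mem_commutator hw (hD he))
            have e1 : w * e * w⁻¹ = ⁅w, e⁆ * e := by
              rw [commutatorElement_def]; group
            rw [e1]
            exact D.mul_mem h1 he
          rw [Subgroup.mem_normalizer_iff]
          intro d
          constructor
          · intro hd
            exact hconj z hzL d hd
          · intro hd
            have := hconj z⁻¹ ((L j).inv_mem hzL) _ hd
            have e2 : z⁻¹ * (z * d * z⁻¹) * z⁻¹⁻¹ = d := by group
            rwa [e2] at this
      · exact Or.inr h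
  rcases key n 0 (by omega) with h | h
  · exact absurd h hQD
  · exact h

end normalizer

end Cfsg.Agent.Lib.Helper70.HW1
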