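import Mathlib
import Cfsg.Prelude.Def_Transfer
import Cfsg.Agent.Lib.Helper70.HW1
import Cfsg.Agent.Lib.Helper34.Alperin

set_option autoImplicit false

/-!
# Tools for the Hall–Wielandt transfer theorem (part 2): fusion

`fusion_inv` : `P` a Sylow `p`-subgroup of the finite group `G`, `Q` weakly closed in `P` with the
Engel condition `[u, z, …, z] = 1` (`p - 1` entries `z`) for `u ∈ P`, `z ∈ Q`, and `f : G → A`
multiplicative on `N_G(Q)` with values in an abelian group of exponent `p`. Then `f` is constant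
on `G`-fusion classes of `P`: `f (g⁻¹ u g) = f u` whenever `u, g⁻¹ u g ∈ P`.
-/

namespace Cfsg.Agent.Lib.Helper70.HW2

open Finset Cfsg
open Cfsg.Agent.Lib.Helper34.Alperin
open scoped commutatorElement

variable {G : Type*} [Group G]

theorem mem_normalizer_of_map_eq {Q : Subgroup G} {g : G}
    (h : Q.map (MulAut.conj g).toMonoidHom = Q) : g ∈ Subgroup.normalizer (Q : Set G) := by
  rw [Subgroup.mem_normalizer_iff]
  intro x
  constructor
  · intro hx
    rw [← h]
    exact ⟨x, hx, by simp [MulAut.conj_apply]⟩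
  · intro hx
    rw [← h] at hx
    obtain ⟨q, hq, hqx⟩ := hx
    have : q = x := by
      have h2 : g * q * g⁻¹ = g * x * g⁻¹ := by simpa [MulAut.conj_apply] using hqx
      simpa using h2
    exact this ▸ hq

section mult

variable {A : Type*} [CommGroup A] {H : Subgroup G} {f : G → A}

theorem f_one (hf : ∀ x ∈ H, ∀ y ∈ H, f (x * y) = f x * f y) : f 1 = 1 := by
  have := hf 1 H.one_mem 1 H.one_mem
  rw [mul_one] at this
  exact mul_eq_left.1 this.symm

theorem f_inv (hf : ∀ x ∈ H, ∀ y ∈ H, f (x * y) = f x * f y) {x : G} (hx : x ∈ H) :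
    f x⁻¹ = (f x)⁻¹ := by
  have := hf x hx x⁻¹ (H.inv_mem hx)
  rw [mul_inv_cancel, f_one hf] at this
  exact eq_inv_of_mul_eq_one_right this.symm

theorem f_conj (hf : ∀ x ∈ H, ∀ y ∈ H, f (x * y) = f x * f y) {x y : G} (hx : x ∈ H) (hy : y ∈ H) :
    f (x⁻¹ * y * x) = f y := by
  rw [hf _ (H.mul_mem (H.inv_mem hx) hy) _ hx, hf _ (H.inv_mem hx) _ hy, f_inv hf hx]
  rw [mul_comm (f x)⁻¹, mul_assoc, inv_mul_cancel, mul_one]

theorem eq_of_pow_eq {p c : ℕ} (hp : p.Prime) (hA : ∀ a : A, a ^ p = 1) (hc : ¬ p ∣ c) {a b : A}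
    (h : a ^ c = b ^ c) : a = b := by
  have h1 : (a * b⁻¹) ^ c = 1 := by
    rw [mul_pow, inv_pow, h, mul_inv_cancel]
  have h2 : orderOf (a * b⁻¹) ∣ c := orderOf_dvd_of_pow_eq_one h1
  have h3 : orderOf (a * b⁻¹) ∣ p := orderOf_dvd_of_pow_eq_one (hA _)
  have h4 : orderOf (a * b⁻¹) = 1 := by
    have := Nat.dvd_gcd h3 h2
    rwa [(Nat.Prime.coprime_iff_not_dvd hp).2 hc, Nat.dvd_one] at this
  rw [orderOf_eq_one_iff] at h4
  exact mul_inv_eq_one.1 h4

end mult

variable [Finite G] {p : ℕ} [Fact p.Prime] {A : Type*} [CommGroup A]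

theorem sylow_le_normalizer (P : Sylow p G) (Q : Subgroup G)
    (hQ : Cfsg.IsWeaklyClosed Q (P : Subgroup G)) :
    (P : Subgroup G) ≤ Subgroup.normalizer (Q : Set G) := by
  intro g hg
  apply mem_normalizer_of_map_eq
  apply hQ.2
  rintro _ ⟨q, hq, rfl⟩
  have : (MulAut.conj g).toMonoidHom q = g * q * g⁻¹ := by simp [MulAut.conj_apply]
  rw [this]
  exact (P : Subgroup G).mul_mem ((P : Subgroup G).mul_mem hg (hQ.1 hq)) ((P : Subgroup G).inv_mem hg)

/-- the one-step statement for a fully normalized `D`, given the conjugation-invariance of `f`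
on all larger subgroups. -/
theorem T_of_C (P : Sylow p G) (Q : Subgroup G) (hQ : Cfsg.IsWeaklyClosed Q (P : Subgroup G))
    (hE : ∀ u ∈ (P : Subgroup G), ∀ z ∈ Q, (fun y : G => y⁻¹ * z⁻¹ * y * z)^[p - 1] u = 1)
    (hA : ∀ a : A, a ^ p = 1) (f : G → A)
    (hf : ∀ x ∈ Subgroup.normalizer (Q : Set G), ∀ y ∈ Subgroup.normalizer (Q : Set G),
      f (x * y) = f x * f y)
    (D : Subgroup G) (hD : D ≤ (P : Subgroup G))
    (htame : ¬ p ∣ ((P : Subgroup G) ⊓ Subgroup.normalizer (D : Set G)).relIndex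
      (Subgroup.normalizer (D : Set G)))
    (hC : ∀ E' : Subgroup G, E' ≤ (P : Subgroup G) → Nat.card D < Nat.card E' →
      ∀ m : G, (∀ y ∈ E', m⁻¹ * y * m ∈ (P : Subgroup G)) → ∀ y ∈ E', f (m⁻¹ * y * m) = f y) :
    ∀ w ∈ D, ∀ x ∈ Subgroup.normalizer (D : Set G), f (x⁻¹ * w * x) = f w := by
  classical
  have hp : p.Prime := Fact.out
  intro w hw x hx
  have hPH : (P : Subgroup G) ≤ Subgroup.normalizer (Q : Set G) := sylow_le_normalizer P Q hQ
  by_cases hQD : Q ≤ D
  · have hxH : x ∈ Subgroup.normalizer (Q : Set G) := by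
      have h1 : Q.map (MulAut.conj x⁻¹).toMonoidHom ≤ (P : Subgroup G) := by
        rintro _ ⟨q, hq, rfl⟩
        have h2 := (Subgroup.mem_normalizer_iff''.1 hx q).1 (hQD hq)
        have e : (MulAut.conj x⁻¹).toMonoidHom q = x⁻¹ * q * x := by simp [MulAut.conj_apply]
        rw [e]
        exact hD h2
      have h3 : x⁻¹ ∈ Subgroup.normalizer (Q : Set G) := mem_normalizer_of_map_eq (hQ.2 x⁻¹ h1)
      simpa using (Subgroup.normalizer (Q : Set G)).inv_mem h3
    exact f_conj hf hxH (hPH (hD hw))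
  · obtain ⟨z₀, hz₀Q, hz₀N, hz₀D⟩ := Cfsg.Agent.Lib.Helper70.HW1.exists_mem_normalizer_not_mem
      (P : Subgroup G) Q D P.2 hQ.1 hPH hD hQD
    set M : Subgroup G := Subgroup.normalizer (D : Set G) with hM
    set S : Subgroup G := Q ⊓ M with hS
    set E₁ : Subgroup G := D ⊔ S with hE₁
    have hSP : S ≤ (P : Subgroup G) := inf_le_left.trans hQ.1
    have hE₁P : E₁ ≤ (P : Subgroup G) := sup_le hD hSP
    have hlt : Nat.card D < Nat.card E₁ := by
      by_contra hcon
      have h1 : D = E₁ := Subgroup.eq_of_le_of_card_ge le_sup_left (not_lt.1 hcon)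
      apply hz₀D
      rw [h1]
      exact (le_sup_right : S ≤ E₁) ⟨hz₀Q, hz₀N⟩
    have hCE := hC E₁ hE₁P hlt
    have hconjD : ∀ m ∈ M, ∀ d ∈ D, m⁻¹ * d * m ∈ D := fun m hm d hd =>
      (Subgroup.mem_normalizer_iff''.1 hm d).1 hd
    let PM : Subgroup M := ((P : Subgroup G) ⊓ M).subgroupOf M
    let SM : Subgroup M := S.subgroupOf M
    have hSMp : IsPGroup p SM := (P.2.to_le hSP).comap_subtype
    haveI : Fintype (M ⧸ PM) := Fintype.ofFinite _
    let F : G → (M ⧸ PM) → A := fun d ξ => f ((ξ.out : G)⁻¹ * d * (ξ.out : G))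
    have key1 : ∀ d ∈ D, ∀ m : M, F d (QuotientGroup.mk m) = f ((m : G)⁻¹ * d * m) := by
      intro d hd m
      obtain ⟨c, hc⟩ := QuotientGroup.mk_out_eq_mul PM m
      show f ((((QuotientGroup.mk m : M ⧸ PM).out : M) : G)⁻¹ * d *
        (((QuotientGroup.mk m : M ⧸ PM).out : M) : G)) = _
      rw [hc]
      have hcP : ((c : M) : G) ∈ (P : Subgroup G) := (Subgroup.mem_subgroupOf.1 c.2).1
      have hmd : (m : G)⁻¹ * d * m ∈ D := hconjD m m.2 d hd
      have e : (((m * (c : M) : M) : G))⁻¹ * d * ((m * (c : M) : M) : G) =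
          ((c : M) : G)⁻¹ * ((m : G)⁻¹ * d * m) * ((c : M) : G) := by
        simp only [Subgroup.coe_mul]; group
      rw [e]
      exact f_conj hf (hPH hcP) (hPH (hD hmd))
    -- the fixed points
    let Y : Finset (M ⧸ PM) := Finset.univ.filter (fun ξ => ∀ s : SM, s • ξ = ξ)
    have hL1 : ∀ d ∈ D, ∏ ξ, F d ξ = ∏ ξ ∈ Y, F d ξ := by
      intro d hd
      obtain ⟨Y', hY', hprod⟩ := Cfsg.Agent.Lib.Helper70.HW1.prod_eq_prod_fixed (p := p) (F d)
        (Nat.card SM) SM hSMp le_rfl (by
          intro z ξ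
          induction ξ using QuotientGroup.induction_on with
          | H m =>
            have hzQ : ((z : M) : G) ∈ Q := (Subgroup.mem_subgroupOf.1 z.2).1
            have e : ∀ i : ℕ, F d (z ^ i • (QuotientGroup.mk m : M ⧸ PM)) =
                (fun y => f ((m : G)⁻¹ * y * m)) ((((z : M) : G) ^ i)⁻¹ * d * ((z : M) : G) ^ i) := by
              intro i
              have h1 : z ^ i • (QuotientGroup.mk m : M ⧸ PM) =
                  QuotientGroup.mk ((z : M) ^ i * m) := rfl
              rw [h1, key1 d hd]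
              show f (_) = f (_)
              congr 1
              simp only [Subgroup.coe_mul, Subgroup.coe_pow]
              group
            rw [Finset.prod_congr rfl (fun i _ => e i)]
            refine Cfsg.Agent.Lib.Helper70.HW1.engel_prod hp hA ((z : M) : G) D
              (fun y hy => hconjD _ (z : M).2 y hy) (fun y => f ((m : G)⁻¹ * y * m)) ?_ d hd
              (hE d (hD hd) _ hzQ)
            intro x hx y hy
            have e2 : (m : G)⁻¹ * (x * y) * m = ((m : G)⁻¹ * x * m) * ((m : G)⁻¹ * y * m) := by group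
            show f ((m : G)⁻¹ * (x * y) * m) = f ((m : G)⁻¹ * x * m) * f ((m : G)⁻¹ * y * m)
            rw [e2]
            exact hf _ (hPH (hD (hconjD m m.2 x hx))) _ (hPH (hD (hconjD m m.2 y hy))))
      have : Y' = Y := by
        ext ξ
        rw [hY']
        simp [Y]
      rw [← this]
      exact hprod
    have hfix : ∀ d ∈ D, ∀ ξ ∈ Y, F d ξ = f d := by
      intro d hd ξ hξ
      induction ξ using QuotientGroup.induction_on with
      | H m =>
        rw [key1 d hd]
        have hfixed : ∀ s : SM, s • (QuotientGroup.mk m : M ⧸ PM) = QuotientGroup.mk m := by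
          simpa [Y] using hξ
        have hS' : ∀ s ∈ S, (m : G)⁻¹ * s * m ∈ (P : Subgroup G) := by
          intro s hs
          have hsM : s⁻¹ ∈ M := M.inv_mem hs.2
          have h1 := hfixed ⟨⟨s⁻¹, hsM⟩, Subgroup.mem_subgroupOf.2 (S.inv_mem hs)⟩
          have h2 : (QuotientGroup.mk ((⟨s⁻¹, hsM⟩ : M) * m) : M ⧸ PM) = QuotientGroup.mk m := h1
          rw [QuotientGroup.eq] at h2
          have h3 := (Subgroup.mem_subgroupOf.1 h2).1
          have e : (((((⟨s⁻¹, hsM⟩ : M) * m)⁻¹ * m : M)) : G) = (m : G)⁻¹ * s * m := by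
            simp only [Subgroup.coe_mul, Subgroup.coe_inv]
            group
          rwa [e] at h3
        have hall : ∀ y ∈ E₁, (m : G)⁻¹ * y * m ∈ (P : Subgroup G) := by
          have hle : E₁ ≤ (P : Subgroup G).comap (MulAut.conj (m : G)⁻¹).toMonoidHom := by
            apply sup_le
            · intro y hy
              rw [Subgroup.mem_comap]
              have : (MulAut.conj (m : G)⁻¹).toMonoidHom y = (m : G)⁻¹ * y * m := by
                simp [MulAut.conj_apply]
              rw [this]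
              exact hD (hconjD m m.2 y hy)
            · intro y hy
              rw [Subgroup.mem_comap]
              have : (MulAut.conj (m : G)⁻¹).toMonoidHom y = (m : G)⁻¹ * y * m := by
                simp [MulAut.conj_apply]
              rw [this]
              exact hS' y hy
          intro y hy
          have h1 := hle hy
          rw [Subgroup.mem_comap] at h1
          have : (MulAut.conj (m : G)⁻¹).toMonoidHom y = (m : G)⁻¹ * y * m := by
            simp [MulAut.conj_apply]
          rwa [this] at h1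
        exact hCE (m : G) hall d ((le_sup_left : D ≤ E₁) hd)
    -- the number of fixed points is prime to `p`
    have hcard : ¬ p ∣ Y.card := by
      have h1 := hSMp.card_modEq_card_fixedPoints (M ⧸ PM)
      have h2 : Nat.card (M ⧸ PM) = ((P : Subgroup G) ⊓ M).relIndex M := rfl
      have h3 : Nat.card (MulAction.fixedPoints SM (M ⧸ PM)) = Y.card := by
        rw [← Fintype.card_coe Y, ← Nat.card_eq_fintype_card]
        apply Nat.card_congr
        apply Equiv.subtypeEquivRight
        intro ξ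
        simp [Y, MulAction.mem_fixedPoints]
      rw [h2, h3] at h1
      intro hdvd
      apply htame
      exact (Nat.modEq_zero_iff_dvd.1 (h1.trans (Nat.modEq_zero_iff_dvd.2 hdvd)))
    -- invariance
    have hxw : x⁻¹ * w * x ∈ D := hconjD x hx w hw
    have hinv : ∏ ξ, F (x⁻¹ * w * x) ξ = ∏ ξ, F w ξ := by
      have h1 : ∀ ξ : M ⧸ PM, F (x⁻¹ * w * x) ξ = F w ((⟨x, hx⟩ : M) • ξ) := by
        intro ξ
        induction ξ using QuotientGroup.induction_on with
        | H m =>
          have h2 : (⟨x, hx⟩ : M) • (QuotientGroup.mk m : M ⧸ PM) =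
              QuotientGroup.mk ((⟨x, hx⟩ : M) * m) := rfl
          rw [h2, key1 _ hxw, key1 _ hw]
          congr 1
          simp only [Subgroup.coe_mul]
          group
      rw [Finset.prod_congr rfl (fun ξ _ => h1 ξ)]
      exact Equiv.prod_comp (MulAction.toPerm (⟨x, hx⟩ : M)) (F w)
    have h5 : f (x⁻¹ * w * x) ^ Y.card = f w ^ Y.card := by
      rw [← Finset.prod_const, ← Finset.prod_const]
      rw [← Finset.prod_congr rfl (fun ξ hξ => hfix _ hxw ξ hξ),
        ← Finset.prod_congr rfl (fun ξ hξ => hfix _ hw ξ hξ), ← hL1 _ hxw, ← hL1 _ hw]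
      exact hinv
    exact eq_of_pow_eq hp hA hcard h5

/-- **Fusion invariance** (the Hall–Wielandt argument in Alperin form). -/
theorem fusion_inv (P : Sylow p G) (Q : Subgroup G) (hQ : Cfsg.IsWeaklyClosed Q (P : Subgroup G))
    (hE : ∀ u ∈ (P : Subgroup G), ∀ z ∈ Q, (fun y : G => y⁻¹ * z⁻¹ * y * z)^[p - 1] u = 1)
    (hA : ∀ a : A, a ^ p = 1) (f : G → A)
    (hf : ∀ x ∈ Subgroup.normalizer (Q : Set G), ∀ y ∈ Subgroup.normalizer (Q : Set G),
      f (x * y) = f x * f y)
    (u g : G) (hu : u ∈ (P : Subgroup G)) (hug : g⁻¹ * u * g ∈ (P : Subgroup G)) :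
    f (g⁻¹ * u * g) = f u := by
  -- the step
  have step : ∀ E : Subgroup G, E ≤ (P : Subgroup G) →
      (∀ E' : Subgroup G, E' ≤ (P : Subgroup G) → Nat.card E < Nat.card E' →
        ∀ m : G, (∀ y ∈ E', m⁻¹ * y * m ∈ (P : Subgroup G)) → ∀ y ∈ E', f (m⁻¹ * y * m) = f y) →
      ∀ m : G, (∀ y ∈ E, m⁻¹ * y * m ∈ (P : Subgroup G)) → ∀ y ∈ E, f (m⁻¹ * y * m) = f y := by
    intro E hEP IH m hm
    obtain ⟨l, hl, hprod⟩ := fus_main P (E : Set G) m hEP (by
      rintro _ ⟨a, ha, rfl⟩
      exact hm a ha)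
    have key : ∀ (l : List (Sylow p G × G)) (B : Set G), B.ncard = Nat.card E → Chain P B l →
        ∀ y ∈ B, f (((l.map Prod.snd).prod)⁻¹ * y * (l.map Prod.snd).prod) = f y := by
      intro l
      induction l with
      | nil => intro B _ _ y _; simp
      | cons qx l ih =>
        obtain ⟨Q₁, x⟩ := qx
        intro B hB hchain y hy
        obtain ⟨hstep, hBD, hrest⟩ := hchain
        set D : Subgroup G := (P : Subgroup G) ⊓ (Q₁ : Subgroup G) with hDdef
        have hcardD : Nat.card E ≤ Nat.card D := by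
          rw [← hB]
          show B.ncard ≤ (D : Set G).ncard
          exact Set.ncard_le_ncard hBD (Set.toFinite _)
        have hT := T_of_C P Q hQ hE hA f hf D inf_le_left hstep.2.1
          (fun E' hE' hlt => IH E' hE' (lt_of_le_of_lt hcardD hlt))
        have h1 : f (x⁻¹ * y * x) = f y := hT y (hBD hy) x hstep.1
        have h2 := ih (cj x B) (by
          rw [← hB]
          exact Set.ncard_image_of_injective _ (fun a b hab => by
            have : x⁻¹ * a * x = x⁻¹ * b * x := hab
            simpa using this)) hrest (x⁻¹ * y * x) ⟨y, hy, rfl⟩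
        rw [← h1, ← h2]
        congr 1
        simp only [List.map_cons, List.prod_cons]
        group
    intro y hy
    have := key l (E : Set G) (Nat.card_coe_set_eq (E : Set G)).symm hl y hy
    rwa [hprod] at this
  have all : ∀ (n : ℕ) (E : Subgroup G), E ≤ (P : Subgroup G) →
      Nat.card (P : Subgroup G) ≤ Nat.card E + n →
      ∀ m : G, (∀ y ∈ E, m⁻¹ * y * m ∈ (P : Subgroup G)) → ∀ y ∈ E, f (m⁻¹ * y * m) = f y := by
    intro n
    induction n with
    | zero =>
      intro E hEP hcard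
      refine step E hEP (fun E' hE' hlt => ?_)
      have := Subgroup.card_le_of_le hE'
      omega
    | succ n ih =>
      intro E hEP hcard
      exact step E hEP (fun E' hE' hlt => ih E' hE' (by omega))
  have hz : Subgroup.zpowers u ≤ (P : Subgroup G) := by
    rw [Subgroup.zpowers_le]; exact hu
  refine all (Nat.card (P : Subgroup G)) (Subgroup.zpowers u) hz (by omega) g ?_ u
    (Subgroup.mem_zpowers u)
  intro y hy
  obtain ⟨k, rfl⟩ := Subgroup.mem_zpowers_iff.1 hy
  have e : g⁻¹ * u ^ k * g = (g⁻¹ * u * g) ^ k := by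
    have h1 : g⁻¹ * u ^ k * g = g⁻¹ * u ^ k * g⁻¹⁻¹ := by rw [inv_inv]
    have h2 : g⁻¹ * u * g = g⁻¹ * u * g⁻¹⁻¹ := by rw [inv_inv]
    rw [h1, h2, conj_zpow]
  rw [e]
  exact (P : Subgroup G).zpow_mem hug k

end Cfsg.Agent.Lib.Helper70.HW2
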