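import Mathlib
import Cfsg.Prelude.Def_Transfer
import Cfsg.Prelude.Def_BaumannBlocks
import Cfsg.Agent.Lib.Helper70.HW2
import Cfsg.Agent.Lib.Helper4.Tate
import Cfsg.Agent.Lib.Helper34.PResidual

set_option autoImplicit false

/-!
# The Hall–Wielandt theorem

`hall_wielandt` : `P` a Sylow `p`-subgroup of the finite group `G`, `Q` weakly closed in `P` with
the Engel condition `[u, z, …, z] = 1` (`p - 1` entries `z`) for `u ∈ P`, `z ∈ Q`. Then
`O^p(N_G(Q)) = O^p(G) ∩ N_G(Q)`.
-/

namespace Cfsg.Agent.Lib.Helper70.HW3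

open Cfsg
open scoped commutatorElement

variable {G : Type*} [Group G] [Finite G] {p : ℕ} [Fact p.Prime]

/-- a `p`-element of `G' O^p(G)` lies in `G'`. -/
theorem mem_commutator_of_mem_sup (P : Sylow p G) {s : G} (hs : s ∈ (P : Subgroup G))
    (hsN : s ∈ commutator G ⊔ Cfsg.pResidual p G) : s ∈ commutator G := by
  have hp : p.Prime := Fact.out
  let π : G →* Abelianization G := Abelianization.of
  -- elements of the image of `O^p(G)` have order prime to `p`
  have h1 : ∀ a ∈ (Cfsg.pResidual p G).map π, ∃ k : ℕ, Nat.Coprime k p ∧ a ^ k = 1 := by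
    intro a ha
    rw [Cfsg.pResidual, MonoidHom.map_closure] at ha
    induction ha using Subgroup.closure_induction with
    | mem a ha =>
      obtain ⟨g, hg, rfl⟩ := ha
      exact ⟨orderOf g, hg, by rw [← map_pow, pow_orderOf_eq_one, map_one]⟩
    | one => exact ⟨1, Nat.coprime_one_left p, by simp⟩
    | mul a b _ _ iha ihb =>
      obtain ⟨k, hk, hak⟩ := iha
      obtain ⟨l, hl, hbl⟩ := ihb
      refine ⟨k * l, Nat.Coprime.mul_left hk hl, ?_⟩
      rw [mul_pow, pow_mul, hak, one_pow, mul_comm k l, pow_mul, hbl, one_pow, mul_one]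
    | inv a _ iha =>
      obtain ⟨k, hk, hak⟩ := iha
      exact ⟨k, hk, by rw [inv_pow, hak, inv_one]⟩
  have h2 : π s ∈ (Cfsg.pResidual p G).map π := by
    have h3 : π s ∈ (commutator G ⊔ Cfsg.pResidual p G).map π := ⟨s, hsN, rfl⟩
    rw [Subgroup.map_sup] at h3
    have h4 : (commutator G).map π = ⊥ := by
      rw [Subgroup.map_eq_bot_iff, Abelianization.ker_of]
    rwa [h4, bot_sup_eq] at h3
  obtain ⟨k, hk, hsk⟩ := h1 _ h2
  obtain ⟨j, hj⟩ := P.2 ⟨s, hs⟩
  have hsj : s ^ p ^ j = 1 := by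
    have := congrArg Subtype.val hj
    simpa using this
  have h5 : orderOf (π s) ∣ k := orderOf_dvd_of_pow_eq_one hsk
  have h6 : orderOf (π s) ∣ p ^ j := orderOf_dvd_of_pow_eq_one (by rw [← map_pow, hsj, map_one])
  have h7 : orderOf (π s) = 1 := by
    have := Nat.dvd_gcd h5 h6
    rwa [Nat.Coprime.pow_right j hk, Nat.dvd_one] at this
  rw [orderOf_eq_one_iff] at h7
  have h8 : s ∈ π.ker := h7
  rwa [Abelianization.ker_of] at h8

theorem pResidualOf_le (H : Subgroup G) : Cfsg.pResidualOf p H ≤ Cfsg.pResidual p G ⊓ H := by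
  apply le_inf
  · rw [Cfsg.pResidualOf, Subgroup.map_le_iff_le_comap, Cfsg.pResidual, Subgroup.closure_le]
    intro h hh
    rw [SetLike.mem_coe, Subgroup.mem_comap]
    apply Subgroup.subset_closure
    show Nat.Coprime (orderOf ((h : H) : G)) p
    rw [Subgroup.orderOf_coe]
    exact hh
  · exact Subgroup.map_subtype_le _

/-- **Hall–Wielandt.** -/
theorem hall_wielandt (P : Sylow p G) (Q : Subgroup G)
    (hQ : Cfsg.IsWeaklyClosed Q (P : Subgroup G))
    (hE : ∀ u ∈ (P : Subgroup G), ∀ z ∈ Q, (fun y : G => y⁻¹ * z⁻¹ * y * z)^[p - 1] u = 1) :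
    Cfsg.pResidualOf p (Subgroup.normalizer (Q : Set G)) =
      Cfsg.pResidual p G ⊓ Subgroup.normalizer (Q : Set G) := by
  classical
  have hp : p.Prime := Fact.out
  set H : Subgroup G := Subgroup.normalizer (Q : Set G) with hH
  have hPH : (P : Subgroup G) ≤ H := Cfsg.Agent.Lib.Helper70.HW2.sylow_le_normalizer P Q hQ
  apply le_antisymm (pResidualOf_le H)
  have hHidx : ¬ p ∣ H.index := fun h =>
    P.not_dvd_index (h.trans (Subgroup.index_dvd_of_le hPH))
  haveI hRn : (Cfsg.pResidual p G).Normal := Cfsg.Agent.Lib.Helper34.PResidual.pResidual_normal p G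
  have htate := Cfsg.Agent.Lib.Helper4.Tate.tate hp H hHidx (commutator G ⊔ Cfsg.pResidual p G)
    le_sup_right (by
      intro M hMn hMidx
      haveI := hMn
      have hcard : Nat.card (H ⧸ M) = p := hMidx
      haveI : IsCyclic (H ⧸ M) := isCyclic_of_prime_card hcard
      have hcomm : ∀ a b : H ⧸ M, a * b = b * a := fun a b =>
        (IsCyclic.isMulCommutative (α := H ⧸ M)).is_comm.comm a b
      letI : CommGroup (H ⧸ M) := { (inferInstance : Group (H ⧸ M)) with mul_comm := hcomm }
      have hA : ∀ a : H ⧸ M, a ^ p = 1 := by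
        intro a
        rw [← hcard]
        exact pow_card_eq_one'
      let f : G → H ⧸ M := fun g => if h : g ∈ H then (QuotientGroup.mk' M ⟨g, h⟩) else 1
      have hfH : ∀ (g : G) (h : g ∈ H), f g = QuotientGroup.mk' M ⟨g, h⟩ := by
        intro g h
        simp only [f, dif_pos h]
      have hf : ∀ x ∈ H, ∀ y ∈ H, f (x * y) = f x * f y := by
        intro x hx y hy
        rw [hfH x hx, hfH y hy, hfH (x * y) (H.mul_mem hx hy)]
        exact map_mul (QuotientGroup.mk' M) ⟨x, hx⟩ ⟨y, hy⟩
      have hfus := Cfsg.Agent.Lib.Helper70.HW2.fusion_inv P Q hQ hE hA f hf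
      have hf1 : f 1 = 1 := Cfsg.Agent.Lib.Helper70.HW2.f_one hf
      -- `f` kills `P ∩ G'`
      have hfoc : ∀ s ∈ (P : Subgroup G), s ∈ commutator G → f s = 1 := by
        intro s hs hsc
        have h1 : s ∈ (P : Subgroup G).focalSubgroup := by
          rw [← Subgroup.commutator_inf_eq_focalSubgroup P]
          exact ⟨hsc, hs⟩
        rw [Subgroup.focalSubgroup_def] at h1
        have h2 : ∀ t ∈ Subgroup.closure {g : G | g ∈ (P : Subgroup G) ∧
            ∃ x ∈ (P : Subgroup G), ∃ u : G, g = ⁅x, u⁆}, t ∈ (P : Subgroup G) ∧ f t = 1 := by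
          intro t ht
          induction ht using Subgroup.closure_induction with
          | mem t ht =>
            obtain ⟨htP, x, hx, u, rfl⟩ := ht
            refine ⟨htP, ?_⟩
            have e : ⁅x, u⁆ = x * (u⁻¹⁻¹ * x⁻¹ * u⁻¹) := by
              rw [commutatorElement_def]; group
            have h3 : u⁻¹⁻¹ * x⁻¹ * u⁻¹ ∈ (P : Subgroup G) := by
              have : u⁻¹⁻¹ * x⁻¹ * u⁻¹ = x⁻¹ * ⁅x, u⁆ := by
                rw [commutatorElement_def]; group
              rw [this]
              exact (P : Subgroup G).mul_mem ((P : Subgroup G).inv_mem hx) htP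
            rw [e, hf _ (hPH hx) _ (hPH h3),
              hfus x⁻¹ u⁻¹ ((P : Subgroup G).inv_mem hx) h3,
              Cfsg.Agent.Lib.Helper70.HW2.f_inv hf (hPH hx), mul_inv_cancel]
          | one => exact ⟨(P : Subgroup G).one_mem, hf1⟩
          | mul a b _ _ iha ihb =>
            exact ⟨(P : Subgroup G).mul_mem iha.1 ihb.1, by
              rw [hf _ (hPH iha.1) _ (hPH ihb.1), iha.2, ihb.2, mul_one]⟩
          | inv a _ iha =>
            exact ⟨(P : Subgroup G).inv_mem iha.1, by
              rw [Cfsg.Agent.Lib.Helper70.HW2.f_inv hf (hPH iha.1), iha.2, inv_one]⟩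
        exact (h2 s h1).2
      -- `O^p(H) ≤ M`
      have hres : Cfsg.pResidual p H ≤ M := by
        rw [Cfsg.pResidual, Subgroup.closure_le]
        intro h hh
        rw [SetLike.mem_coe, ← QuotientGroup.eq_one_iff]
        have h1 : orderOf (QuotientGroup.mk' M h) ∣ orderOf h := orderOf_map_dvd _ h
        have h2 : orderOf (QuotientGroup.mk' M h) ∣ p := orderOf_dvd_of_pow_eq_one (hA _)
        have h3 : orderOf (QuotientGroup.mk' M h) = 1 := by
          have := Nat.dvd_gcd h1 h2
          have hh' : Nat.Coprime (orderOf h) p := hh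
          rwa [hh', Nat.dvd_one] at this
        rw [orderOf_eq_one_iff] at h3
        exact h3
      intro x hx
      rw [Subgroup.mem_subgroupOf] at hx
      -- decompose `x`
      have hRidx : ¬ p ∣ ((P : Subgroup G).subgroupOf H).index := fun h =>
        P.not_dvd_index (h.trans (Subgroup.relIndex_dvd_index_of_le hPH))
      obtain ⟨s, hs, r, hr, hxsr⟩ := Cfsg.Agent.Lib.Helper34.PResidual.exists_mul_of_not_dvd_index hp
        ((P : Subgroup G).subgroupOf H) hRidx x
      rw [hxsr]
      refine M.mul_mem ?_ (hres hr)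
      have hsP : (s : G) ∈ (P : Subgroup G) := Subgroup.mem_subgroupOf.1 hs
      have hrG : (r : G) ∈ Cfsg.pResidual p G := (pResidualOf_le H ⟨r, hr, rfl⟩).1
      have hsN : (s : G) ∈ commutator G ⊔ Cfsg.pResidual p G := by
        have e : (s : G) = (x : G) * (r : G)⁻¹ := by
          rw [hxsr]; simp
        rw [e]
        exact Subgroup.mul_mem _ hx
          (Subgroup.inv_mem _ ((le_sup_right : Cfsg.pResidual p G ≤ _) hrG))
      have h9 := hfoc (s : G) hsP (mem_commutator_of_mem_sup P hsP hsN)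
      rw [hfH (s : G) s.2] at h9
      exact (QuotientGroup.eq_one_iff _).1 h9)
  rintro x ⟨hx1, hx2⟩
  exact ⟨⟨x, hx2⟩, htate (Subgroup.mem_subgroupOf.2 hx1), rfl⟩

/-- a Sylow subgroup is weakly closed in itself. -/
theorem isWeaklyClosed_self (P : Sylow p G) :
    Cfsg.IsWeaklyClosed (P : Subgroup G) (P : Subgroup G) := by
  refine ⟨le_rfl, fun g hg => ?_⟩
  apply Subgroup.eq_of_le_of_card_ge hg
  rw [Subgroup.card_map_of_injective (MulAut.conj g).injective]

/-- class `< p` gives the Engel condition. -/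
theorem engel_of_class (P : Subgroup G)
    (hcl : P.lowerCentralSeries (p - 1) = ⊥) :
    ∀ u ∈ P, ∀ z ∈ P, (fun y : G => y⁻¹ * z⁻¹ * y * z)^[p - 1] u = 1 := by
  intro u hu z hz
  have key : ∀ j : ℕ, (fun y : G => y⁻¹ * z⁻¹ * y * z)^[j] u ∈ P.lowerCentralSeries j := by
    intro j
    induction j with
    | zero => exact hu
    | succ j ih =>
      rw [Function.iterate_succ_apply', Subgroup.lowerCentralSeries_succ]
      have e : ∀ y : G, y⁻¹ * z⁻¹ * y * z = ⁅y⁻¹, z⁻¹⁆ := by
        intro y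
        rw [commutatorElement_def]; group
      show ((fun y : G => y⁻¹ * z⁻¹ * y * z)^[j] u)⁻¹ * z⁻¹ *
        ((fun y : G => y⁻¹ * z⁻¹ * y * z)^[j] u) * z ∈ _
      rw [e]
      exact Subgroup.commutator_mem_commutator (Subgroup.inv_mem _ ih) (P.inv_mem hz)
  have := key (p - 1)
  rw [hcl] at this
  exact Subgroup.mem_bot.1 this

end Cfsg.Agent.Lib.Helper70.HW3
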