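import Cfsg.Agent.Lib.Helper86.CenB
import Cfsg.Agent.Lib.Helper35.M24BlkStmt

set_option autoImplicit false

/-!
# S5006 piece GOODB: the fixed-point-free involution `gB` of `M24` is good

`Q` is the elementary abelian group of order 64 of the elements of the centraliser of `gB`
fixing each tetrad of the sextet `S0`; `TL` lists 120 coset representatives of `Q` in the
centraliser (of order 7680, `card_CenB`).  `Q` is normalised by the centraliser and contains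
its own centraliser in `M24`.
-/

namespace Cfsg.Agent.Lib.Helper70.M24BlkGOODB

open Cfsg Cfsg.Agent.Lib.Helper7.GolayBase Cfsg.Agent.Lib.Helper7.GolayPerm
  Cfsg.Agent.Lib.Helper86.TabGrp Cfsg.Agent.Lib.Helper86.ChainEnum
  Cfsg.Agent.Lib.Helper86.CenTab Cfsg.Agent.Lib.Helper86.M24Inv
  Cfsg.Agent.Lib.Helper86.M24Inv2 Cfsg.Agent.Lib.Helper86.CenB
  Cfsg.Agent.Lib.Helper35.M24BlkStmt

/-- Tables of six generators of `Q`. -/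
def gQ : List (List Nat) := [
  [8, 2, 1, 16, 7, 11, 9, 4, 0, 6, 18, 5, 21, 20, 17, 19, 3, 14, 10, 15, 13, 12, 23, 22],
  [0, 1, 2, 3, 7, 23, 9, 4, 8, 6, 12, 22, 10, 20, 17, 15, 16, 14, 21, 19, 13, 18, 11, 5],
  [0, 1, 2, 3, 13, 11, 17, 20, 8, 14, 18, 5, 21, 4, 9, 15, 16, 6, 10, 19, 7, 12, 23, 22],
  [0, 2, 1, 3, 4, 11, 14, 7, 8, 17, 12, 5, 10, 13, 6, 19, 16, 9, 21, 15, 20, 18, 23, 22],
  [0, 15, 19, 3, 4, 23, 17, 7, 8, 14, 21, 22, 18, 13, 9, 1, 16, 6, 12, 2, 20, 10, 11, 5],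
  [3, 1, 2, 0, 4, 22, 17, 7, 16, 14, 12, 23, 10, 13, 9, 15, 8, 6, 21, 19, 20, 18, 5, 11]]

/-- The tables of the 64 elements of `Q`, in doubling order. -/
def LQ : List (List Nat) := [
  [0, 1, 2, 3, 4, 5, 6, 7, 8, 9, 10, 11, 12, 13, 14, 15, 16, 17, 18, 19, 20, 21, 22, 23],
  [8, 2, 1, 16, 7, 11, 9, 4, 0, 6, 18, 5, 21, 20, 17, 19, 3, 14, 10, 15, 13, 12, 23, 22],
  [0, 1, 2, 3, 7, 23, 9, 4, 8, 6, 12, 22, 10, 20, 17, 15, 16, 14, 21, 19, 13, 18, 11, 5],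
  [8, 2, 1, 16, 4, 22, 6, 7, 0, 9, 21, 23, 18, 13, 14, 19, 3, 17, 12, 15, 20, 10, 5, 11],
  [0, 1, 2, 3, 13, 11, 17, 20, 8, 14, 18, 5, 21, 4, 9, 15, 16, 6, 10, 19, 7, 12, 23, 22],
  [8, 2, 1, 16, 20, 5, 14, 13, 0, 17, 10, 11, 12, 7, 6, 19, 3, 9, 18, 15, 4, 21, 22, 23],
  [0, 1, 2, 3, 20, 22, 14, 13, 8, 17, 21, 23, 18, 7, 6, 15, 16, 9, 12, 19, 4, 10, 5, 11],
  [8, 2, 1, 16, 13, 23, 17, 20, 0, 14, 12, 22, 10, 4, 9, 19, 3, 6, 21, 15, 7, 18, 11, 5],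
  [0, 2, 1, 3, 4, 11, 14, 7, 8, 17, 12, 5, 10, 13, 6, 19, 16, 9, 21, 15, 20, 18, 23, 22],
  [8, 1, 2, 16, 7, 5, 17, 4, 0, 14, 21, 11, 18, 20, 9, 15, 3, 6, 12, 19, 13, 10, 22, 23],
  [0, 2, 1, 3, 7, 22, 17, 4, 8, 14, 10, 23, 12, 20, 9, 19, 16, 6, 18, 15, 13, 21, 5, 11],
  [8, 1, 2, 16, 4, 23, 14, 7, 0, 17, 18, 22, 21, 13, 6, 15, 3, 9, 10, 19, 20, 12, 11, 5],
  [0, 2, 1, 3, 13, 5, 9, 20, 8, 6, 21, 11, 18, 4, 17, 19, 16, 14, 12, 15, 7, 10, 22, 23],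
  [8, 1, 2, 16, 20, 11, 6, 13, 0, 9, 12, 5, 10, 7, 14, 15, 3, 17, 21, 19, 4, 18, 23, 22],
  [0, 2, 1, 3, 20, 23, 6, 13, 8, 9, 18, 22, 21, 7, 14, 19, 16, 17, 10, 15, 4, 12, 11, 5],
  [8, 1, 2, 16, 13, 22, 9, 20, 0, 6, 10, 23, 12, 4, 17, 15, 3, 14, 18, 19, 7, 21, 5, 11],
  [0, 15, 19, 3, 4, 23, 17, 7, 8, 14, 21, 22, 18, 13, 9, 1, 16, 6, 12, 2, 20, 10, 11, 5],
  [8, 19, 15, 16, 7, 22, 14, 4, 0, 17, 12, 23, 10, 20, 6, 2, 3, 9, 21, 1, 13, 18, 5, 11],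
  [0, 15, 19, 3, 7, 5, 14, 4, 8, 17, 18, 11, 21, 20, 6, 1, 16, 9, 10, 2, 13, 12, 22, 23],
  [8, 19, 15, 16, 4, 11, 17, 7, 0, 14, 10, 5, 12, 13, 9, 2, 3, 6, 18, 1, 20, 21, 23, 22],
  [0, 15, 19, 3, 13, 22, 6, 20, 8, 9, 12, 23, 10, 4, 14, 1, 16, 17, 21, 2, 7, 18, 5, 11],
  [8, 19, 15, 16, 20, 23, 9, 13, 0, 6, 21, 22, 18, 7, 17, 2, 3, 14, 12, 1, 4, 10, 11, 5],
  [0, 15, 19, 3, 20, 11, 9, 13, 8, 6, 10, 5, 12, 7, 17, 1, 16, 14, 18, 2, 4, 21, 23, 22],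
  [8, 19, 15, 16, 13, 5, 6, 20, 0, 9, 18, 11, 21, 4, 14, 2, 3, 17, 10, 1, 7, 12, 22, 23],
  [0, 19, 15, 3, 4, 22, 9, 7, 8, 6, 18, 23, 21, 13, 17, 2, 16, 14, 10, 1, 20, 12, 5, 11],
  [8, 15, 19, 16, 7, 23, 6, 4, 0, 9, 10, 22, 12, 20, 14, 1, 3, 17, 18, 2, 13, 21, 11, 5],
  [0, 19, 15, 3, 7, 11, 6, 4, 8, 9, 21, 5, 18, 20, 14, 2, 16, 17, 12, 1, 13, 10, 23, 22],
  [8, 15, 19, 16, 4, 5, 9, 7, 0, 6, 12, 11, 10, 13, 17, 1, 3, 14, 21, 2, 20, 18, 22, 23],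
  [0, 19, 15, 3, 13, 23, 14, 20, 8, 17, 10, 22, 12, 4, 6, 2, 16, 9, 18, 1, 7, 21, 11, 5],
  [8, 15, 19, 16, 20, 22, 17, 13, 0, 14, 18, 23, 21, 7, 9, 1, 3, 6, 10, 2, 4, 12, 5, 11],
  [0, 19, 15, 3, 20, 5, 17, 13, 8, 14, 12, 11, 10, 7, 9, 2, 16, 6, 21, 1, 4, 18, 22, 23],
  [8, 15, 19, 16, 13, 11, 14, 20, 0, 17, 21, 5, 18, 4, 6, 1, 3, 9, 12, 2, 7, 10, 23, 22],
  [3, 1, 2, 0, 4, 22, 17, 7, 16, 14, 12, 23, 10, 13, 9, 15, 8, 6, 21, 19, 20, 18, 5, 11],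
  [16, 2, 1, 8, 7, 23, 14, 4, 3, 17, 21, 22, 18, 20, 6, 19, 0, 9, 12, 15, 13, 10, 11, 5],
  [3, 1, 2, 0, 7, 11, 14, 4, 16, 17, 10, 5, 12, 20, 6, 15, 8, 9, 18, 19, 13, 21, 23, 22],
  [16, 2, 1, 8, 4, 5, 17, 7, 3, 14, 18, 11, 21, 13, 9, 19, 0, 6, 10, 15, 20, 12, 22, 23],
  [3, 1, 2, 0, 13, 23, 6, 20, 16, 9, 21, 22, 18, 4, 14, 15, 8, 17, 12, 19, 7, 10, 11, 5],
  [16, 2, 1, 8, 20, 22, 9, 13, 3, 6, 12, 23, 10, 7, 17, 19, 0, 14, 21, 15, 4, 18, 5, 11],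
  [3, 1, 2, 0, 20, 5, 9, 13, 16, 6, 18, 11, 21, 7, 17, 15, 8, 14, 10, 19, 4, 12, 22, 23],
  [16, 2, 1, 8, 13, 11, 6, 20, 3, 9, 10, 5, 12, 4, 14, 19, 0, 17, 18, 15, 7, 21, 23, 22],
  [3, 2, 1, 0, 4, 23, 9, 7, 16, 6, 10, 22, 12, 13, 17, 19, 8, 14, 18, 15, 20, 21, 11, 5],
  [16, 1, 2, 8, 7, 22, 6, 4, 3, 9, 18, 23, 21, 20, 14, 15, 0, 17, 10, 19, 13, 12, 5, 11],
  [3, 2, 1, 0, 7, 5, 6, 4, 16, 9, 12, 11, 10, 20, 14, 19, 8, 17, 21, 15, 13, 18, 22, 23],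
  [16, 1, 2, 8, 4, 11, 9, 7, 3, 6, 21, 5, 18, 13, 17, 15, 0, 14, 12, 19, 20, 10, 23, 22],
  [3, 2, 1, 0, 13, 22, 14, 20, 16, 17, 18, 23, 21, 4, 6, 19, 8, 9, 10, 15, 7, 12, 5, 11],
  [16, 1, 2, 8, 20, 23, 17, 13, 3, 14, 10, 22, 12, 7, 9, 15, 0, 6, 18, 19, 4, 21, 11, 5],
  [3, 2, 1, 0, 20, 11, 17, 13, 16, 14, 21, 5, 18, 7, 9, 19, 8, 6, 12, 15, 4, 10, 23, 22],
  [16, 1, 2, 8, 13, 5, 14, 20, 3, 17, 12, 11, 10, 4, 6, 15, 0, 9, 21, 19, 7, 18, 22, 23],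
  [3, 15, 19, 0, 4, 11, 6, 7, 16, 9, 18, 5, 21, 13, 14, 1, 8, 17, 10, 2, 20, 12, 23, 22],
  [16, 19, 15, 8, 7, 5, 9, 4, 3, 6, 10, 11, 12, 20, 17, 2, 0, 14, 18, 1, 13, 21, 22, 23],
  [3, 15, 19, 0, 7, 22, 9, 4, 16, 6, 21, 23, 18, 20, 17, 1, 8, 14, 12, 2, 13, 10, 5, 11],
  [16, 19, 15, 8, 4, 23, 6, 7, 3, 9, 12, 22, 10, 13, 14, 2, 0, 17, 21, 1, 20, 18, 11, 5],
  [3, 15, 19, 0, 13, 5, 17, 20, 16, 14, 10, 11, 12, 4, 9, 1, 8, 6, 18, 2, 7, 21, 22, 23],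
  [16, 19, 15, 8, 20, 11, 14, 13, 3, 17, 18, 5, 21, 7, 6, 2, 0, 9, 10, 1, 4, 12, 23, 22],
  [3, 15, 19, 0, 20, 23, 14, 13, 16, 17, 12, 22, 10, 7, 6, 1, 8, 9, 21, 2, 4, 18, 11, 5],
  [16, 19, 15, 8, 13, 22, 17, 20, 3, 14, 21, 23, 18, 4, 9, 2, 0, 6, 12, 1, 7, 10, 5, 11],
  [3, 19, 15, 0, 4, 5, 14, 7, 16, 17, 21, 11, 18, 13, 6, 2, 8, 9, 12, 1, 20, 10, 22, 23],
  [16, 15, 19, 8, 7, 11, 17, 4, 3, 14, 12, 5, 10, 20, 9, 1, 0, 6, 21, 2, 13, 18, 23, 22],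
  [3, 19, 15, 0, 7, 23, 17, 4, 16, 14, 18, 22, 21, 20, 9, 2, 8, 6, 10, 1, 13, 12, 11, 5],
  [16, 15, 19, 8, 4, 22, 14, 7, 3, 17, 10, 23, 12, 13, 6, 1, 0, 9, 18, 2, 20, 21, 5, 11],
  [3, 19, 15, 0, 13, 11, 9, 20, 16, 6, 12, 5, 10, 4, 17, 2, 8, 14, 21, 1, 7, 18, 23, 22],
  [16, 15, 19, 8, 20, 5, 6, 13, 3, 9, 21, 11, 18, 7, 14, 1, 0, 17, 12, 2, 4, 10, 22, 23],
  [3, 19, 15, 0, 20, 22, 6, 13, 16, 9, 10, 23, 12, 7, 14, 2, 8, 17, 18, 1, 4, 21, 5, 11],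
  [16, 15, 19, 8, 13, 23, 9, 20, 3, 6, 18, 22, 21, 4, 17, 1, 0, 14, 10, 2, 7, 12, 11, 5]]

/-- Tables of 120 coset representatives of `Q` in the centraliser of `gB`. -/
def TL : List (List Nat) := [
  [0, 1, 2, 3, 4, 5, 6, 7, 8, 9, 10, 11, 12, 13, 14, 15, 16, 17, 18, 19, 20, 21, 22, 23],
  [0, 1, 2, 3, 6, 21, 4, 9, 8, 7, 22, 12, 11, 17, 20, 15, 16, 13, 23, 19, 14, 5, 10, 18],
  [0, 1, 2, 16, 5, 6, 21, 11, 8, 12, 20, 9, 7, 23, 10, 19, 3, 18, 13, 15, 22, 4, 14, 17],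
  [0, 1, 2, 16, 10, 20, 22, 18, 8, 23, 6, 13, 17, 12, 5, 19, 3, 11, 9, 15, 21, 14, 4, 7],
  [0, 4, 7, 3, 1, 6, 5, 2, 8, 11, 10, 9, 12, 19, 23, 20, 16, 22, 18, 13, 15, 21, 17, 14],
  [0, 4, 7, 3, 5, 21, 1, 11, 8, 2, 17, 12, 9, 22, 15, 20, 16, 19, 14, 13, 23, 6, 10, 18],
  [0, 4, 7, 16, 6, 5, 21, 9, 8, 12, 15, 11, 2, 14, 10, 13, 3, 18, 19, 20, 17, 1, 23, 22],
  [0, 4, 7, 16, 10, 15, 17, 18, 8, 14, 5, 19, 22, 12, 6, 13, 3, 9, 11, 20, 21, 23, 1, 2],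
  [0, 5, 11, 3, 4, 1, 21, 7, 8, 12, 17, 2, 9, 13, 18, 23, 16, 10, 14, 22, 20, 6, 19, 15],
  [0, 5, 11, 3, 10, 9, 13, 18, 8, 20, 15, 6, 1, 21, 7, 23, 16, 4, 19, 22, 12, 2, 14, 17],
  [0, 5, 11, 16, 1, 21, 6, 2, 8, 9, 20, 12, 7, 15, 17, 22, 3, 14, 13, 23, 19, 4, 18, 10],
  [0, 5, 11, 16, 6, 4, 1, 9, 8, 2, 18, 7, 12, 14, 19, 22, 3, 15, 10, 23, 17, 21, 20, 13],
  [0, 6, 9, 3, 1, 4, 21, 2, 8, 12, 22, 7, 11, 19, 18, 14, 16, 10, 23, 17, 15, 5, 13, 20],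
  [0, 6, 9, 3, 10, 11, 19, 18, 8, 15, 20, 5, 4, 21, 2, 14, 16, 1, 13, 17, 12, 7, 23, 22],
  [0, 6, 9, 16, 4, 21, 5, 7, 8, 11, 15, 12, 2, 20, 22, 17, 3, 23, 19, 14, 13, 1, 18, 10],
  [0, 6, 9, 16, 5, 1, 4, 11, 8, 7, 18, 2, 12, 23, 13, 17, 3, 20, 10, 14, 22, 21, 15, 19],
  [0, 10, 18, 3, 5, 13, 9, 11, 8, 6, 15, 20, 1, 22, 17, 12, 16, 14, 19, 21, 23, 2, 4, 7],
  [0, 10, 18, 3, 6, 19, 11, 9, 8, 5, 20, 15, 4, 17, 22, 12, 16, 23, 13, 21, 14, 7, 1, 2],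
  [0, 10, 18, 16, 1, 22, 20, 2, 8, 13, 6, 23, 17, 15, 7, 21, 3, 4, 9, 12, 19, 14, 11, 5],
  [0, 10, 18, 16, 4, 17, 15, 7, 8, 19, 5, 14, 22, 20, 2, 21, 3, 1, 11, 12, 13, 23, 9, 6],
  [1, 0, 8, 15, 4, 10, 6, 7, 2, 9, 5, 18, 23, 13, 14, 3, 19, 17, 11, 16, 20, 22, 21, 12],
  [1, 0, 8, 15, 6, 22, 4, 9, 2, 7, 21, 23, 18, 17, 20, 3, 19, 13, 12, 16, 14, 10, 5, 11],
  [1, 0, 8, 19, 5, 20, 21, 11, 2, 12, 6, 13, 17, 23, 10, 16, 15, 18, 9, 3, 22, 14, 4, 7],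
  [1, 0, 8, 19, 10, 6, 22, 18, 2, 23, 20, 9, 7, 12, 5, 16, 15, 11, 13, 3, 21, 4, 14, 17],
  [1, 4, 7, 15, 0, 6, 10, 8, 2, 18, 5, 9, 23, 16, 12, 20, 19, 21, 11, 13, 3, 22, 17, 14],
  [1, 4, 7, 15, 10, 22, 0, 18, 2, 8, 17, 23, 9, 21, 3, 20, 19, 16, 14, 13, 12, 6, 5, 11],
  [1, 4, 7, 19, 5, 3, 17, 11, 2, 14, 10, 16, 21, 23, 6, 13, 15, 9, 18, 20, 22, 12, 0, 8],
  [1, 4, 7, 19, 6, 10, 22, 9, 2, 23, 3, 18, 8, 14, 5, 13, 15, 11, 16, 20, 17, 0, 12, 21],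
  [1, 5, 11, 15, 6, 16, 18, 9, 2, 10, 20, 3, 4, 17, 21, 23, 19, 12, 13, 22, 14, 7, 0, 8],
  [1, 5, 11, 15, 10, 13, 9, 18, 2, 6, 3, 20, 0, 21, 17, 23, 19, 14, 16, 22, 12, 8, 4, 7],
  [1, 5, 11, 19, 0, 21, 20, 8, 2, 13, 6, 12, 17, 3, 7, 22, 15, 4, 9, 23, 16, 14, 18, 10],
  [1, 5, 11, 19, 4, 17, 3, 7, 2, 16, 10, 14, 21, 20, 8, 22, 15, 0, 18, 23, 13, 12, 9, 6],
  [1, 6, 9, 15, 0, 4, 22, 8, 2, 23, 21, 7, 18, 16, 11, 14, 19, 5, 12, 17, 3, 10, 13, 20],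
  [1, 6, 9, 15, 5, 18, 16, 11, 2, 3, 20, 10, 4, 22, 8, 14, 19, 0, 13, 17, 23, 7, 12, 21],
  [1, 6, 9, 19, 4, 22, 10, 7, 2, 18, 3, 23, 8, 20, 21, 17, 15, 12, 16, 14, 13, 0, 11, 5],
  [1, 6, 9, 19, 10, 0, 4, 18, 2, 7, 11, 8, 23, 12, 13, 17, 15, 20, 5, 14, 21, 22, 3, 16],
  [1, 10, 18, 15, 4, 0, 22, 7, 2, 23, 17, 8, 9, 13, 11, 12, 19, 5, 14, 21, 20, 6, 16, 3],
  [1, 10, 18, 15, 5, 9, 13, 11, 2, 20, 3, 6, 0, 22, 7, 12, 19, 4, 16, 21, 23, 8, 14, 17],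
  [1, 10, 18, 19, 0, 22, 6, 8, 2, 9, 20, 23, 7, 3, 17, 21, 15, 14, 13, 12, 16, 4, 11, 5],
  [1, 10, 18, 19, 6, 4, 0, 9, 2, 8, 11, 7, 23, 14, 16, 21, 15, 3, 5, 12, 17, 22, 20, 13],
  [4, 0, 8, 13, 6, 15, 21, 9, 7, 12, 5, 19, 22, 14, 10, 16, 20, 18, 11, 3, 17, 23, 1, 2],
  [4, 0, 8, 13, 10, 5, 17, 18, 7, 14, 15, 11, 2, 12, 6, 16, 20, 9, 19, 3, 21, 1, 23, 22],
  [4, 0, 8, 20, 1, 10, 5, 2, 7, 11, 6, 18, 14, 19, 23, 3, 13, 22, 9, 16, 15, 17, 21, 12],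
  [4, 0, 8, 20, 5, 17, 1, 11, 7, 2, 21, 14, 18, 22, 15, 3, 13, 19, 12, 16, 23, 10, 6, 9],
  [4, 1, 2, 13, 5, 10, 17, 11, 7, 14, 3, 18, 8, 23, 6, 19, 20, 9, 16, 15, 22, 0, 12, 21],
  [4, 1, 2, 13, 6, 3, 22, 9, 7, 23, 10, 16, 21, 14, 5, 19, 20, 11, 18, 15, 17, 12, 0, 8],
  [4, 1, 2, 20, 0, 5, 10, 8, 7, 18, 6, 11, 14, 16, 12, 15, 13, 21, 9, 19, 3, 17, 22, 23],
  [4, 1, 2, 20, 10, 17, 0, 18, 7, 8, 22, 14, 11, 21, 3, 15, 13, 16, 23, 19, 12, 5, 6, 9],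
  [4, 5, 11, 13, 1, 17, 10, 2, 7, 18, 3, 14, 8, 15, 21, 22, 20, 12, 16, 23, 19, 0, 9, 6],
  [4, 5, 11, 13, 10, 0, 1, 18, 7, 2, 9, 8, 14, 12, 19, 22, 20, 15, 6, 23, 21, 17, 3, 16],
  [4, 5, 11, 20, 0, 1, 17, 8, 7, 14, 21, 2, 18, 16, 9, 23, 13, 6, 12, 22, 3, 10, 19, 15],
  [4, 5, 11, 20, 6, 18, 16, 9, 7, 3, 15, 10, 1, 17, 8, 23, 13, 0, 19, 22, 14, 2, 12, 21],
  [4, 6, 9, 13, 0, 21, 15, 8, 7, 19, 5, 12, 22, 3, 2, 17, 20, 1, 11, 14, 16, 23, 18, 10],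
  [4, 6, 9, 13, 1, 22, 3, 2, 7, 16, 10, 23, 21, 15, 8, 17, 20, 0, 18, 14, 19, 12, 11, 5],
  [4, 6, 9, 20, 5, 16, 18, 11, 7, 10, 15, 3, 1, 22, 21, 14, 13, 12, 19, 17, 23, 2, 0, 8],
  [4, 6, 9, 20, 10, 19, 11, 18, 7, 5, 3, 15, 0, 21, 22, 14, 13, 23, 16, 17, 12, 8, 1, 2],
  [4, 10, 18, 13, 0, 17, 5, 8, 7, 11, 15, 14, 2, 3, 22, 21, 20, 23, 19, 12, 16, 1, 9, 6],
  [4, 10, 18, 13, 5, 1, 0, 11, 7, 8, 9, 2, 14, 23, 16, 21, 20, 3, 6, 12, 22, 17, 15, 19],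
  [4, 10, 18, 20, 1, 0, 17, 2, 7, 14, 22, 8, 11, 19, 9, 12, 13, 6, 23, 21, 15, 5, 16, 3],
  [4, 10, 18, 20, 6, 11, 19, 9, 7, 15, 3, 5, 0, 17, 2, 12, 13, 1, 16, 21, 14, 8, 23, 22],
  [5, 0, 8, 22, 1, 20, 6, 2, 11, 9, 21, 13, 10, 15, 17, 16, 23, 14, 12, 3, 19, 18, 4, 7],
  [5, 0, 8, 22, 6, 18, 1, 9, 11, 2, 4, 10, 13, 14, 19, 16, 23, 15, 7, 3, 17, 20, 21, 12],
  [5, 0, 8, 23, 4, 17, 21, 7, 11, 12, 1, 14, 15, 13, 18, 3, 22, 10, 2, 16, 20, 19, 6, 9],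
  [5, 0, 8, 23, 10, 15, 13, 18, 11, 20, 9, 19, 17, 21, 7, 3, 22, 4, 6, 16, 12, 14, 2, 1],
  [5, 1, 2, 22, 0, 6, 20, 8, 11, 13, 21, 9, 10, 3, 7, 19, 23, 4, 12, 15, 16, 18, 14, 17],
  [5, 1, 2, 22, 4, 10, 3, 7, 11, 16, 17, 18, 6, 20, 8, 19, 23, 0, 14, 15, 13, 9, 12, 21],
  [5, 1, 2, 23, 6, 20, 18, 9, 11, 10, 16, 13, 8, 17, 21, 15, 22, 12, 3, 19, 14, 0, 7, 4],
  [5, 1, 2, 23, 10, 3, 9, 18, 11, 6, 13, 16, 7, 21, 17, 15, 22, 14, 20, 19, 12, 4, 8, 0],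
  [5, 4, 7, 22, 1, 3, 10, 2, 11, 18, 17, 16, 6, 15, 21, 13, 23, 12, 14, 20, 19, 9, 0, 8],
  [5, 4, 7, 22, 10, 9, 1, 18, 11, 2, 0, 6, 16, 12, 19, 13, 23, 15, 8, 20, 21, 3, 17, 14],
  [5, 4, 7, 23, 0, 21, 17, 8, 11, 14, 1, 12, 15, 16, 9, 20, 22, 6, 2, 13, 3, 19, 10, 18],
  [5, 4, 7, 23, 6, 15, 16, 9, 11, 3, 18, 19, 21, 17, 8, 20, 22, 0, 10, 13, 14, 12, 2, 1],
  [5, 6, 9, 22, 0, 1, 18, 8, 11, 10, 4, 2, 13, 3, 12, 17, 23, 21, 7, 14, 16, 20, 15, 19],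
  [5, 6, 9, 22, 10, 7, 8, 18, 11, 0, 2, 4, 15, 12, 3, 17, 23, 16, 1, 14, 21, 19, 13, 20],
  [5, 6, 9, 23, 1, 18, 20, 2, 11, 13, 16, 10, 8, 19, 4, 14, 22, 7, 3, 17, 15, 0, 12, 21],
  [5, 6, 9, 23, 4, 16, 15, 7, 11, 19, 18, 3, 21, 13, 1, 14, 22, 2, 10, 17, 20, 12, 0, 8],
  [5, 10, 18, 22, 4, 1, 9, 7, 11, 6, 0, 2, 16, 20, 14, 21, 23, 17, 8, 12, 13, 3, 15, 19],
  [5, 10, 18, 22, 6, 8, 7, 9, 11, 4, 2, 0, 15, 14, 20, 21, 23, 13, 1, 12, 17, 19, 16, 3],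
  [5, 10, 18, 23, 0, 13, 15, 8, 11, 19, 9, 20, 17, 16, 1, 12, 22, 2, 6, 21, 3, 14, 4, 7],
  [5, 10, 18, 23, 1, 9, 3, 2, 11, 16, 13, 6, 7, 19, 0, 12, 22, 8, 20, 21, 15, 4, 14, 17],
  [6, 0, 8, 14, 1, 22, 21, 2, 9, 12, 4, 23, 20, 19, 18, 3, 17, 10, 7, 16, 15, 13, 5, 11],
  [6, 0, 8, 14, 10, 20, 19, 18, 9, 15, 11, 13, 22, 21, 2, 3, 17, 1, 5, 16, 12, 23, 7, 4],
  [6, 0, 8, 17, 4, 15, 5, 7, 9, 11, 21, 19, 10, 20, 22, 16, 14, 23, 12, 3, 13, 18, 1, 2],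
  [6, 0, 8, 17, 5, 18, 4, 11, 9, 7, 1, 10, 19, 23, 13, 16, 14, 20, 2, 3, 22, 15, 21, 12],
  [6, 1, 2, 14, 0, 21, 22, 8, 9, 23, 4, 12, 20, 16, 11, 15, 17, 5, 7, 19, 3, 13, 10, 18],
  [6, 1, 2, 14, 5, 20, 16, 11, 9, 3, 18, 13, 21, 22, 8, 15, 17, 0, 10, 19, 23, 12, 7, 4],
  [6, 1, 2, 17, 4, 3, 10, 7, 9, 18, 22, 16, 5, 20, 21, 19, 14, 12, 23, 15, 13, 11, 0, 8],
  [6, 1, 2, 17, 10, 11, 4, 18, 9, 7, 0, 5, 16, 12, 13, 19, 14, 20, 8, 15, 21, 3, 22, 23],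
  [6, 4, 7, 14, 5, 15, 18, 11, 9, 10, 16, 19, 8, 22, 21, 20, 17, 12, 3, 13, 23, 0, 2, 1],
  [6, 4, 7, 14, 10, 3, 11, 18, 9, 5, 19, 16, 2, 21, 22, 20, 17, 23, 15, 13, 12, 1, 8, 0],
  [6, 4, 7, 17, 0, 5, 15, 8, 9, 19, 21, 11, 10, 3, 2, 13, 14, 1, 12, 20, 16, 18, 23, 22],
  [6, 4, 7, 17, 1, 10, 3, 2, 9, 16, 22, 18, 5, 15, 8, 13, 14, 0, 23, 20, 19, 11, 12, 21],
  [6, 5, 11, 14, 1, 16, 20, 2, 9, 13, 18, 3, 21, 19, 4, 23, 17, 7, 10, 22, 15, 12, 0, 8],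
  [6, 5, 11, 14, 4, 18, 15, 7, 9, 19, 16, 10, 8, 13, 1, 23, 17, 2, 3, 22, 20, 0, 12, 21],
  [6, 5, 11, 17, 0, 4, 18, 8, 9, 10, 1, 7, 19, 3, 12, 22, 14, 21, 2, 23, 16, 15, 20, 13],
  [6, 5, 11, 17, 10, 2, 8, 18, 9, 0, 7, 1, 20, 12, 3, 22, 14, 16, 4, 23, 21, 13, 19, 15],
  [6, 10, 18, 14, 0, 19, 20, 8, 9, 13, 11, 15, 22, 16, 4, 12, 17, 7, 5, 21, 3, 23, 1, 2],
  [6, 10, 18, 14, 4, 11, 3, 7, 9, 16, 19, 5, 2, 13, 0, 12, 17, 8, 15, 21, 20, 1, 23, 22],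
  [6, 10, 18, 17, 1, 4, 11, 2, 9, 5, 0, 7, 16, 15, 23, 21, 14, 22, 8, 12, 19, 3, 20, 13],
  [6, 10, 18, 17, 5, 8, 2, 11, 9, 1, 7, 0, 20, 23, 15, 21, 14, 19, 4, 12, 22, 13, 16, 3],
  [10, 0, 8, 12, 5, 15, 9, 11, 18, 6, 13, 19, 7, 22, 17, 3, 21, 14, 20, 16, 23, 4, 2, 1],
  [10, 0, 8, 12, 6, 20, 11, 9, 18, 5, 19, 13, 2, 17, 22, 3, 21, 23, 15, 16, 14, 1, 7, 4],
  [10, 0, 8, 21, 1, 6, 20, 2, 18, 13, 22, 9, 5, 15, 7, 16, 12, 4, 23, 3, 19, 11, 14, 17],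
  [10, 0, 8, 21, 4, 5, 15, 7, 18, 19, 17, 11, 6, 20, 2, 16, 12, 1, 14, 3, 13, 9, 23, 22],
  [10, 1, 2, 12, 4, 17, 22, 7, 18, 23, 0, 14, 3, 13, 11, 15, 21, 5, 8, 19, 20, 16, 6, 9],
  [10, 1, 2, 12, 5, 3, 13, 11, 18, 20, 9, 16, 17, 22, 7, 15, 21, 4, 6, 19, 23, 14, 8, 0],
  [10, 1, 2, 21, 0, 20, 6, 8, 18, 9, 22, 13, 5, 3, 17, 19, 12, 14, 23, 15, 16, 11, 4, 7],
  [10, 1, 2, 21, 6, 11, 0, 9, 18, 8, 4, 5, 13, 14, 16, 19, 12, 3, 7, 15, 17, 20, 22, 23],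
  [10, 4, 7, 12, 1, 22, 17, 2, 18, 14, 0, 23, 3, 19, 9, 20, 21, 6, 8, 13, 15, 16, 5, 11],
  [10, 4, 7, 12, 6, 3, 19, 9, 18, 15, 11, 16, 22, 17, 2, 20, 21, 1, 5, 13, 14, 23, 8, 0],
  [10, 4, 7, 21, 0, 15, 5, 8, 18, 11, 17, 19, 6, 3, 22, 13, 12, 23, 14, 20, 16, 9, 1, 2],
  [10, 4, 7, 21, 5, 9, 0, 11, 18, 8, 1, 6, 19, 23, 16, 13, 12, 3, 2, 20, 22, 15, 17, 14],
  [10, 5, 11, 12, 0, 9, 15, 8, 18, 19, 13, 6, 7, 16, 1, 23, 21, 2, 20, 22, 3, 4, 14, 17],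
  [10, 5, 11, 12, 1, 13, 3, 2, 18, 16, 9, 20, 17, 19, 0, 23, 21, 8, 6, 22, 15, 14, 4, 7],
  [10, 5, 11, 21, 4, 0, 9, 7, 18, 6, 1, 8, 19, 20, 14, 22, 12, 17, 2, 23, 13, 15, 3, 16],
  [10, 5, 11, 21, 6, 2, 7, 9, 18, 4, 8, 1, 3, 14, 20, 22, 12, 13, 0, 23, 17, 16, 19, 15],
  [10, 6, 9, 12, 0, 11, 20, 8, 18, 13, 19, 5, 2, 16, 4, 14, 21, 7, 15, 17, 3, 1, 23, 22],
  [10, 6, 9, 12, 4, 19, 3, 7, 18, 16, 11, 15, 22, 13, 0, 14, 21, 8, 5, 17, 20, 23, 1, 2],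
  [10, 6, 9, 21, 1, 0, 11, 2, 18, 5, 4, 8, 13, 15, 23, 17, 12, 22, 7, 14, 19, 20, 3, 16],
  [10, 6, 9, 21, 5, 7, 2, 11, 18, 1, 8, 4, 3, 23, 15, 17, 12, 19, 0, 14, 22, 16, 13, 20]]

/-- The subgroup `Q`. -/
def Q : Subgroup (Equiv.Perm GolayPt) := grp gQ

theorem enum_ok : enumOK gQ LQ = true := by decide +kernel

theorem enumQ : Enum Q LQ := enum_pc gQ LQ enum_ok

theorem cardQ : Nat.card ↥Q = 64 := by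
  rw [enumQ.card]
  rfl

theorem gQ_ok : gQ.all (fun w => inM24' w && commT zB w) = true := by decide +kernel

theorem TL_ok : TL.all (fun w => inM24' w && commT zB w) = true := by decide +kernel

theorem gQ_cen : ∀ w ∈ gQ, ∃ g ∈ Cen gB, Rep g w := all_Cen rep_gB gQ gQ_ok

theorem Q_le_Cen : Q ≤ Cen gB := grp_le gQ (Cen gB) gQ_cen

theorem gQ_mem : ∀ s ∈ gQ, ∃ y ∈ Q, Rep y s := by
  intro s hs
  obtain ⟨g, -, hr⟩ := gQ_cen s hs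
  exact ⟨g, Subgroup.subset_closure ⟨s, hs, hr⟩, hr⟩

theorem TL_spec : ∀ w ∈ TL, ∃ g ∈ Cen gB, Rep g w ∧ Rep g⁻¹ (invT w) := by
  intro w hw
  have h := List.all_eq_true.mp TL_ok w hw
  rw [Bool.and_eq_true] at h
  obtain ⟨g, hg, hr, hr'⟩ := exists_M24_inv w h.1
  exact ⟨g, mem_Cen.mpr ⟨hg, (commT_iff rep_gB hr).mpr h.2⟩, hr, hr'⟩

/-- Index of the tetrad (of the sextet fixed by the centraliser of `gB`) containing the point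
with index `j`. -/
def tetIdx : List Nat := [0,1,1,0,2,3,4,2,0,4,5,3,5,2,4,1,0,4,5,1,2,5,3,3]

/-- The index of one point in each of the six tetrads. -/
def reps : List Nat := [0,1,4,5,6,10]

/-- The tetrad of the point with index `j`. -/
def tetN (j : Nat) : Nat := tetIdx.getD j 0

/-- The tetrad of a point. -/
def tet (p : GolayPt) : Nat := tetN (idx p)

/-- The permutation of the six tetrads induced by a table (when it permutes them). -/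
def sig (w : List Nat) : List Nat := reps.map (fun r => tetN (w.getD r 0))

theorem LQ_tet :
    LQ.all (fun u => (List.range 24).all (fun j => tetN (u.getD j 0) == tetN j)) = true := by
  decide +kernel

theorem TL_tet :
    TL.all (fun w => (List.range 24).all (fun j =>
      tetN (w.getD j 0) == tetN (w.getD (reps.getD (tetN j) 0) 0))) = true := by
  decide +kernel

theorem sig_nodup : (TL.map sig).Nodup := by decide +kernel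

theorem reps_lt : ∀ r ∈ reps, r < 24 := by decide

theorem idT_mem : idT ∈ TL := by decide +kernel

theorem gQ_ab : gQ.all (fun a => gQ.all (fun b => commT a b)) = true := by decide +kernel

theorem cen_ok : TL.all (fun w => w == idT || gQ.any (fun x => !(commT x w))) = true := by
  decide +kernel

theorem zB_mem : zB ∈ LQ := by decide +kernel

theorem TL_nodup : TL.Nodup := by decide +kernel

theorem TL_length : TL.length = 120 := rfl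

theorem gB_mem_Q : gB ∈ Q := by
  obtain ⟨g, hg, hr⟩ := enumQ.rep zB zB_mem
  rw [Rep.ext rep_gB hr]
  exact hg

theorem app_inv (f : Equiv.Perm GolayPt) (x : GolayPt) : f (f⁻¹ x) = x :=
  f.apply_symm_apply x

/-- `Q` fixes every tetrad. -/
theorem Q_tet {q : Equiv.Perm GolayPt} (hq : q ∈ Q) (p : GolayPt) : tet (q p) = tet p := by
  obtain ⟨u, hu, hr⟩ := enumQ.cov q hq
  have h := List.all_eq_true.mp (List.all_eq_true.mp LQ_tet u hu) (idx p)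
    (List.mem_range.mpr (idx_lt p))
  rw [beq_iff_eq, hr.2 p] at h
  exact h

/-- The coset representatives permute the tetrads. -/
theorem T_tet {g : Equiv.Perm GolayPt} {w : List Nat} (hw : w ∈ TL) (hr : Rep g w)
    {p p' : GolayPt} (h : tet p = tet p') : tet (g p) = tet (g p') := by
  have key : ∀ p : GolayPt, tet (g p) = tetN (w.getD (reps.getD (tet p) 0) 0) := by
    intro p
    have h1 := List.all_eq_true.mp (List.all_eq_true.mp TL_tet w hw) (idx p)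
      (List.mem_range.mpr (idx_lt p))
    rw [beq_iff_eq, hr.2 p] at h1
    exact h1
  rw [key p, key p', h]

theorem sig_eq {g g' : Equiv.Perm GolayPt} {w w' : List Nat} (hr : Rep g w) (hr' : Rep g' w')
    (h : ∀ r ∈ reps, tet (g (pt r)) = tet (g' (pt r))) : sig w = sig w' := by
  apply List.map_congr_left
  intro r hr0
  show tetN (w.getD r 0) = tetN (w'.getD r 0)
  have h1 := hr.2 (pt r)
  have h2 := hr'.2 (pt r)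
  rw [idx_pt (reps_lt r hr0)] at h1 h2
  rw [h1, h2]
  exact h r hr0

theorem Q_comm {a b : Equiv.Perm GolayPt} (ha : a ∈ Q) (hb : b ∈ Q) : a * b = b * a := by
  have h1 : ∀ x ∈ genSet gQ, ∀ y ∈ genSet gQ, x * y = y * x := by
    rintro x ⟨s, hs, hrs⟩ y ⟨t, ht, hrt⟩
    have h := List.all_eq_true.mp (List.all_eq_true.mp gQ_ab s hs) t ht
    exact ((commT_iff hrs hrt).mpr h).symm
  have h2 : Q ≤ Subgroup.centralizer (genSet gQ) := by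
    show Subgroup.closure (genSet gQ) ≤ _
    apply (Subgroup.closure_le _).mpr
    intro y hy
    rw [SetLike.mem_coe, Subgroup.mem_centralizer_iff]
    intro x hx
    exact h1 x hx y hy
  have h3 : Q ≤ Subgroup.centralizer (Q : Set (Equiv.Perm GolayPt)) := by
    show Subgroup.closure (genSet gQ) ≤ _
    apply (Subgroup.closure_le _).mpr
    intro y hy
    rw [SetLike.mem_coe, Subgroup.mem_centralizer_iff]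
    intro x hx
    exact ((Subgroup.mem_centralizer_iff.mp (h2 hx)) y hy).symm
  exact (Subgroup.mem_centralizer_iff.mp (h3 hb)) a ha

/-- Every element of the centraliser of `gB` is a coset representative times an element of
`Q`. -/
theorem cen_eq_prod : ∀ c ∈ Cen gB, ∃ w ∈ TL, ∃ g : Equiv.Perm GolayPt,
    Rep g w ∧ Rep g⁻¹ (invT w) ∧ ∃ q ∈ Q, c = g * q := by
  classical
  have hch : ∀ w : {w // w ∈ TL}, ∃ g : Equiv.Perm GolayPt,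
      g ∈ Cen gB ∧ Rep g w.1 ∧ Rep g⁻¹ (invT w.1) := fun w => by
    obtain ⟨g, hg, hr, hr'⟩ := TL_spec w.1 w.2
    exact ⟨g, hg, hr, hr'⟩
  choose G hG using hch
  let f : {w // w ∈ TL} × ↥Q → ↥(Cen gB) := fun x =>
    ⟨G x.1 * (x.2 : Equiv.Perm GolayPt), (Cen gB).mul_mem (hG x.1).1 (Q_le_Cen x.2.2)⟩
  have hf : Function.Injective f := by
    rintro ⟨w, q⟩ ⟨w', q'⟩ h
    have h1 : G w * (q : Equiv.Perm GolayPt) = G w' * (q' : Equiv.Perm GolayPt) :=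
      congrArg Subtype.val h
    have h2 : (G w)⁻¹ * G w' ∈ Q := by
      have : (G w)⁻¹ * G w' = (q : Equiv.Perm GolayPt) * (q' : Equiv.Perm GolayPt)⁻¹ := by
        rw [inv_mul_eq_iff_eq_mul, ← mul_assoc, h1, mul_assoc, mul_inv_cancel, mul_one]
      rw [this]
      exact Q.mul_mem q.2 (Q.inv_mem q'.2)
    have h5 : w.1 = w'.1 := by
      have hs : sig w.1 = sig w'.1 := by
        apply sig_eq (hG w).2.1 (hG w').2.1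
        intro r _
        have e : G w' (pt r) = G w (((G w)⁻¹ * G w') (pt r)) := by
          rw [Equiv.Perm.mul_apply, app_inv]
        rw [e]
        exact (T_tet w.2 (hG w).2.1 (Q_tet h2 (pt r))).symm
      exact List.inj_on_of_nodup_map sig_nodup w.2 w'.2 hs
    have h8 : w = w' := Subtype.ext h5
    subst h8
    have h9 : (q : Equiv.Perm GolayPt) = q' := mul_left_cancel h1
    exact Prod.ext rfl (Subtype.ext h9)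
  have hcard : Nat.card ({w // w ∈ TL} × ↥Q) = 7680 := by
    rw [Nat.card_prod, cardQ, card_mem_list TL TL_nodup, TL_length]
  have hbij : Function.Bijective f :=
    hf.bijective_of_nat_card_le (by rw [hcard, card_CenB])
  intro c hc
  obtain ⟨⟨w, q⟩, hx⟩ := hbij.2 ⟨c, hc⟩
  exact ⟨w.1, w.2, G w, (hG w).2.1, (hG w).2.2, q.1, q.2, (congrArg Subtype.val hx).symm⟩

/-- The centraliser of `gB` permutes the tetrads. -/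
theorem Cen_tet {c : Equiv.Perm GolayPt} (hc : c ∈ Cen gB) {p p' : GolayPt}
    (h : tet p = tet p') : tet (c p) = tet (c p') := by
  obtain ⟨w, hw, g, hr, -, q, hq, rfl⟩ := cen_eq_prod c hc
  rw [Equiv.Perm.mul_apply, Equiv.Perm.mul_apply]
  exact T_tet hw hr (by rw [Q_tet hq, Q_tet hq, h])

/-- `Q` is the kernel of the action of the centraliser of `gB` on the tetrads. -/
theorem mem_Q_of_tet {c : Equiv.Perm GolayPt} (hc : c ∈ Cen gB)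
    (h : ∀ p, tet (c p) = tet p) : c ∈ Q := by
  obtain ⟨w, hw, g, hr, -, q, hq, rfl⟩ := cen_eq_prod c hc
  have hg : ∀ p, tet (g p) = tet p := by
    intro p
    have h1 := h (q⁻¹ p)
    rw [Equiv.Perm.mul_apply, app_inv] at h1
    rw [h1]
    exact Q_tet (Q.inv_mem hq) p
  have hs : sig w = sig idT := by
    apply sig_eq hr rep_one
    intro r _
    rw [hg]
    rfl
  have hw1 : w = idT := List.inj_on_of_nodup_map sig_nodup hw idT_mem hs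
  subst hw1
  rw [hr.eq_one, one_mul]
  exact hq

theorem main : Good gB := by
  refine ⟨Q, Q_le_Cen.trans (Cen_le gB), IsPGroup.of_card (n := 6) (by rw [cardQ]; norm_num),
    ?_, ?_⟩
  · intro c hc hct q hq
    have hcC : c ∈ Cen gB := mem_Cen.mpr ⟨hc, hct⟩
    apply mem_Q_of_tet
      ((Cen gB).mul_mem ((Cen gB).mul_mem hcC (Q_le_Cen hq)) ((Cen gB).inv_mem hcC))
    intro p
    rw [Equiv.Perm.mul_apply, Equiv.Perm.mul_apply]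
    have h1 : tet (q (c⁻¹ p)) = tet (c⁻¹ p) := Q_tet hq _
    rw [Cen_tet hcC h1, app_inv]
  · intro x hx hxQ
    have hxc : x * gB = gB * x := hxQ gB gB_mem_Q
    obtain ⟨w, hw, g, hr, hr', q', hq', rfl⟩ := cen_eq_prod x (mem_Cen.mpr ⟨hx, hxc⟩)
    have hw1 : w = idT := by
      have h := List.all_eq_true.mp cen_ok w hw
      rw [Bool.or_eq_true] at h
      rcases h with h | h
      · exact beq_iff_eq.mp h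
      · exfalso
        rw [List.any_eq_true] at h
        obtain ⟨s, hs, hcs⟩ := h
        obtain ⟨y, hy, hry⟩ := gQ_mem s hs
        have h1 := hxQ y hy
        have h2 : q' * y = y * q' := Q_comm hq' hy
        have h3 : g * y = y * g := by
          have e : g * q' * y = g * y * q' := by rw [mul_assoc, h2, ← mul_assoc]
          rw [e, ← mul_assoc] at h1
          exact mul_right_cancel h1
        have h4 : commT s w = true := (commT_iff hry hr).mp h3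
        rw [h4] at hcs
        exact absurd hcs (by decide)
    subst hw1
    have hg1 : g = 1 := hr.eq_one
    subst hg1
    rw [one_mul]
    exact hq'

end Cfsg.Agent.Lib.Helper70.M24BlkGOODB
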