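import Mathlib
import Cfsg.Agent.Lib.Helper68.MixStmt
import Cfsg.Agent.Lib.Helper78.Fitting
import Cfsg.Agent.S0144
import Cfsg.Agent.S0044

/-!
# S4017 piece FIT (helper70): in a `{2,p}`-group an abelian Sylow `p`-subgroup centralising all
normal `2`-subgroups is normal
-/

set_option autoImplicit false

namespace Cfsg.Agent.Lib.Helper70.MixFIT

open Cfsg.Agent.Lib.Helper68.MixStmt Cfsg.Agent.Lib.Helper78.Fitting

universe u

/-- A `{p,2}`-number is `p ^ a * 2 ^ b`. -/
theorem pq_card (p n : ℕ) (hp : p.Prime) (hp2 : p ≠ 2) (hn : n ≠ 0) (h : PQNum p 2 n) :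
    n = p ^ n.factorization p * 2 ^ n.factorization 2 := by
  have hm : p ^ n.factorization p * 2 ^ n.factorization 2 ≠ 0 :=
    mul_ne_zero (pow_ne_zero _ hp.ne_zero) (pow_ne_zero _ two_ne_zero)
  apply Nat.eq_of_factorization_eq hn hm
  intro r
  rw [Nat.factorization_mul (pow_ne_zero _ hp.ne_zero) (pow_ne_zero _ two_ne_zero),
    Nat.factorization_pow, Nat.factorization_pow, hp.factorization, Nat.prime_two.factorization]
  by_cases hrn : r.Prime ∧ r ∣ n
  · rcases h r hrn.1 hrn.2 with rfl | rfl
    · simp [hp2]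
    · simp [hp2]
  · have h0 : n.factorization r = 0 := by
      by_cases hr : r.Prime
      · exact Nat.factorization_eq_zero_of_not_dvd (fun hd => hrn ⟨hr, hd⟩)
      · exact Nat.factorization_eq_zero_of_not_prime n hr
    rw [h0]
    by_cases h1 : r = p
    · subst h1
      simp [h0, hp2]
    · by_cases h2 : r = 2
      · subst h2
        simp [h0, Ne.symm hp2]
      · simp [Ne.symm h1, Ne.symm h2]

theorem main : FIT.{u} := by
  intro M _ _ p W hp hp2 hpq hWab hW2
  have : Fact p.Prime := ⟨hp⟩
  have hcard := pq_card p (Nat.card M) hp hp2 Nat.card_pos.ne' hpq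
  have : Group.IsSolvable M := Cfsg.Agent.S0144.result p 2 _ _ hp Nat.prime_two hcard
  have hFn : (Cfsg.fittingSubgroup M).Normal := fitting_normal
  have hFnil : Group.IsNilpotent ↥(Cfsg.fittingSubgroup M) := fitting_isNilpotent
  -- `F ≤ C(W)`
  have key : ∀ r : ℕ, r.Prime →
      Cfsg.pCore r M ≤ Subgroup.centralizer ((W : Subgroup M) : Set M) := by
    intro r hr
    have : Fact r.Prime := ⟨hr⟩
    by_cases hr2 : r = 2
    · subst hr2
      intro o ho
      rw [Subgroup.mem_centralizer_iff]
      intro w hw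
      exact hW2 _ (pCore_normal 2) (pCore_isPGroup 2) w hw o ho
    · by_cases hrp : r = p
      · subst hrp
        intro o ho
        rw [Subgroup.mem_centralizer_iff]
        intro w hw
        have hoW : o ∈ (W : Subgroup M) := pCore_le_sylow W ho
        have h := hWab.is_comm.comm (⟨w, hw⟩ : ↥(W : Subgroup M)) ⟨o, hoW⟩
        exact congrArg Subtype.val h
      · have hnd : ¬ r ∣ Nat.card M := by
          intro hd
          rcases hpq r hr hd with h | h
          · exact hrp h
          · exact hr2 h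
        rw [pCore_eq_bot_of_not_dvd r hnd]
        exact bot_le
  have h1 : Cfsg.fittingSubgroup M ≤ Subgroup.centralizer ((W : Subgroup M) : Set M) := by
    rw [fitting_eq_iSup_pCore]
    exact iSup_le (fun r => key r r.2)
  have h2 : (W : Subgroup M) ≤ Cfsg.fittingSubgroup M :=
    (Subgroup.le_centralizer_iff.mp h1).trans Cfsg.Agent.S0044.result
  -- `W` is the Sylow `p`-subgroup of the nilpotent group `F`
  have htf := (Group.isNilpotent_of_finite_tfae (G := ↥(Cfsg.fittingSubgroup M))).out 0 3
  have hall := htf.mp hFnil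
  have hW'n : ((W.subtype h2 : Sylow p ↥(Cfsg.fittingSubgroup M)) :
      Subgroup ↥(Cfsg.fittingSubgroup M)).Normal := hall p inferInstance (W.subtype h2)
  have hW'c : ((W.subtype h2 : Sylow p ↥(Cfsg.fittingSubgroup M)) :
      Subgroup ↥(Cfsg.fittingSubgroup M)).Characteristic :=
    Sylow.characteristic_of_normal _ hW'n
  have h3 := ConjAct.normal_of_characteristic_of_normal (H := Cfsg.fittingSubgroup M)
    (K := ((W.subtype h2 : Sylow p ↥(Cfsg.fittingSubgroup M)) :
      Subgroup ↥(Cfsg.fittingSubgroup M)))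
  rw [Sylow.coe_subtype, Subgroup.map_subgroupOf_eq_of_le h2] at h3
  exact h3

end Cfsg.Agent.Lib.Helper70.MixFIT
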