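import Mathlib
import Cfsg.Agent.Lib.Helper37.SpTStmt

/-!
# S5980 piece CNEG (helper70): for `a = 2`, a symplectic matrix with square `-1` is conjugate in
the symplectic group of `G₁ ⊗ₖ G₂` to `A ⊗ₖ 1`.
-/

set_option autoImplicit false

namespace Cfsg.Agent.Lib.Helper70.SpTCNEG

open scoped Kronecker Matrix
open Cfsg.Agent.Lib.Helper37.SpTStmt

universe u

/-- The entries of a skew-symmetric `2 × 2` matrix in odd characteristic. -/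
theorem skew2 {F : Type u} [Field F] (h2 : (2 : F) ≠ 0) (G₁ : Matrix (Fin 2) (Fin 2) F)
    (hG : G₁ᵀ = -G₁) : G₁ 0 0 = 0 ∧ G₁ 1 1 = 0 ∧ G₁ 1 0 = - G₁ 0 1 := by
  have h00 := congrFun (congrFun hG 0) 0
  have h11 := congrFun (congrFun hG 1) 1
  have h01 := congrFun (congrFun hG 0) 1
  simp only [Matrix.transpose_apply, Matrix.neg_apply] at h00 h11 h01
  refine ⟨?_, ?_, h01⟩
  · have h : (2 : F) * G₁ 0 0 = 0 := by linear_combination h00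
    exact (mul_eq_zero.mp h).resolve_left h2
  · have h : (2 : F) * G₁ 1 1 = 0 := by linear_combination h11
    exact (mul_eq_zero.mp h).resolve_left h2

/-- Entries of `M * K * Mᵀ` as values of the form on the rows of `M`. -/
theorem gram_apply {F : Type u} [Field F] {ι : Type} [Fintype ι] (M K : Matrix ι ι F)
    (q q' : ι) : (M * K * Mᵀ) q q' = M q ⬝ᵥ K *ᵥ M q' := by
  rw [Matrix.mul_assoc]
  rfl

/-- The skew-symmetry of the form of a skew-symmetric matrix. -/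
theorem skew_form {F : Type u} [Field F] {ι : Type} [Fintype ι] (K : Matrix ι ι F)
    (hKT : Kᵀ = -K) (v w : ι → F) : w ⬝ᵥ K *ᵥ v = -(v ⬝ᵥ K *ᵥ w) := by
  rw [Matrix.dotProduct_mulVec, ← Matrix.mulVec_transpose, hKT, Matrix.neg_mulVec,
    neg_dotProduct, dotProduct_comm]

/-- Isometries in terms of the matrix. -/
theorem isom_form {F : Type u} [Field F] {ι : Type} [Fintype ι] [DecidableEq ι]
    (K Y : Matrix ι ι F) (hY : Yᵀ * K * Y = K) (v w : ι → F) :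
    (Y *ᵥ v) ⬝ᵥ K *ᵥ (Y *ᵥ w) = v ⬝ᵥ K *ᵥ w := by
  have h : v ⬝ᵥ (Yᵀ * K * Y) *ᵥ w = (Y *ᵥ v) ⬝ᵥ K *ᵥ (Y *ᵥ w) := by
    rw [← Matrix.mulVec_mulVec, ← Matrix.mulVec_mulVec, Matrix.dotProduct_mulVec v Yᵀ,
      Matrix.vecMul_transpose]
  rw [← h, hY]

/-- A congruence of an invertible matrix is invertible. -/
theorem det_ne_zero_of_congr {F : Type u} [Field F] {ι : Type} [Fintype ι] [DecidableEq ι]
    (K h : Matrix ι ι F) (hK : K.det ≠ 0) (hh : hᵀ * K * h = K) : h.det ≠ 0 := by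
  intro h0
  apply hK
  rw [← hh, Matrix.det_mul, h0, mul_zero]

theorem main (hNegB : NegB.{u}) (hDiag : DiagG.{u}) : CNeg.{u} := by
  intro F _ _ h2 b G₁ G₂ hG₁ hd₁ hG₂ hd₂ Y hY hYY
  obtain ⟨h00, h11, h10⟩ := skew2 h2 G₁ hG₁
  have hδ : G₁ 0 1 ≠ 0 := by
    intro h
    apply hd₁
    rw [Matrix.det_fin_two, h00, h, zero_mul, zero_mul, sub_zero]
  obtain ⟨C, c, hC, hc, hCG⟩ := hDiag F h2 b G₂ hG₂ hd₂
  have hKT : (G₁ ⊗ₖ G₂)ᵀ = -(G₁ ⊗ₖ G₂) := by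
    ext ⟨i, j⟩ ⟨i', j'⟩
    have h1 := congrFun (congrFun hG₁ i) i'
    have h2 := congrFun (congrFun hG₂ j) j'
    simp only [Matrix.transpose_apply, Matrix.neg_apply] at h1 h2
    simp only [Matrix.transpose_apply, Matrix.neg_apply, Matrix.kroneckerMap_apply]
    rw [h1, h2, neg_mul]
  have hdK : (G₁ ⊗ₖ G₂).det ≠ 0 := by
    rw [Matrix.det_kronecker]
    exact mul_ne_zero (pow_ne_zero _ hd₁) (pow_ne_zero _ hd₂)
  have hA : (Matrix.toBilin' (G₁ ⊗ₖ G₂)).IsAlt := by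
    intro v
    rw [Matrix.toBilin'_apply']
    have e := skew_form (G₁ ⊗ₖ G₂) hKT v v
    have h : (2 : F) * (v ⬝ᵥ (G₁ ⊗ₖ G₂) *ᵥ v) = 0 := by linear_combination e
    exact (mul_eq_zero.mp h).resolve_left h2
  have hN : (Matrix.toBilin' (G₁ ⊗ₖ G₂)).Nondegenerate :=
    LinearMap.BilinForm.nondegenerate_toBilin'_of_det_ne_zero' _ hdK
  have hiso : ∀ v w, Matrix.toBilin' (G₁ ⊗ₖ G₂) (Matrix.toLin' Y v) (Matrix.toLin' Y w) =
      Matrix.toBilin' (G₁ ⊗ₖ G₂) v w := by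
    intro v w
    rw [Matrix.toBilin'_apply', Matrix.toBilin'_apply', Matrix.toLin'_apply, Matrix.toLin'_apply]
    exact isom_form _ Y hY v w
  have hYYv : ∀ v : Fin 2 × Fin b → F, Y *ᵥ (Y *ᵥ v) = -v := by
    intro v
    rw [Matrix.mulVec_mulVec, hYY, Matrix.neg_mulVec, Matrix.one_mulVec]
  have hneg : ∀ v, Matrix.toLin' Y (Matrix.toLin' Y v) = -v := by
    intro v
    rw [Matrix.toLin'_apply, Matrix.toLin'_apply]
    exact hYYv v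
  have hdim : Module.finrank F (Fin 2 × Fin b → F) = 2 * b := by
    simp
  obtain ⟨u, hu1, hu2, hu3⟩ := hNegB F h2 (Fin 2 × Fin b → F) (Matrix.toBilin' (G₁ ⊗ₖ G₂)) hA hN
    (Matrix.toLin' Y) hiso hneg b hdim (fun j => G₁ 0 1 * c j) (fun j => mul_ne_zero hδ (hc j))
  have e1 : ∀ j, u j ⬝ᵥ (G₁ ⊗ₖ G₂) *ᵥ (Y *ᵥ u j) = G₁ 0 1 * c j := by
    intro j
    have h := hu1 j
    rwa [Matrix.toBilin'_apply', Matrix.toLin'_apply] at h
  have e2 : ∀ j k, u j ⬝ᵥ (G₁ ⊗ₖ G₂) *ᵥ u k = 0 := by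
    intro j k
    have h := hu2 j k
    rwa [Matrix.toBilin'_apply'] at h
  have e3 : ∀ j k, j ≠ k → u j ⬝ᵥ (G₁ ⊗ₖ G₂) *ᵥ (Y *ᵥ u k) = 0 := by
    intro j k hjk
    have h := hu3 j k hjk
    rwa [Matrix.toBilin'_apply', Matrix.toLin'_apply] at h
  -- the matrix whose rows are `u j` and `Y u j`
  obtain ⟨M, hM⟩ : ∃ M : Matrix (Fin 2 × Fin b) (Fin 2 × Fin b) F,
      ∀ j, M (0, j) = u j ∧ M (1, j) = Y *ᵥ u j :=
    ⟨fun q => if q.1 = 0 then u q.2 else Y *ᵥ u q.2, fun j => ⟨by simp, by simp⟩⟩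
  have hM1 : M * (G₁ ⊗ₖ G₂) * Mᵀ = G₁ ⊗ₖ Matrix.diagonal c := by
    ext ⟨i, j⟩ ⟨i', j'⟩
    rw [gram_apply, Matrix.kroneckerMap_apply]
    fin_cases i <;> fin_cases i'
    · show M (0, j) ⬝ᵥ (G₁ ⊗ₖ G₂) *ᵥ M (0, j') = G₁ 0 0 * Matrix.diagonal c j j'
      rw [(hM j).1, (hM j').1, e2, h00, zero_mul]
    · show M (0, j) ⬝ᵥ (G₁ ⊗ₖ G₂) *ᵥ M (1, j') = G₁ 0 1 * Matrix.diagonal c j j'
      rw [(hM j).1, (hM j').2]
      by_cases hjj : j = j'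
      · subst hjj
        rw [e1, Matrix.diagonal_apply_eq]
      · rw [e3 j j' hjj, Matrix.diagonal_apply_ne _ hjj, mul_zero]
    · show M (1, j) ⬝ᵥ (G₁ ⊗ₖ G₂) *ᵥ M (0, j') = G₁ 1 0 * Matrix.diagonal c j j'
      rw [(hM j).2, (hM j').1, skew_form _ hKT, h10]
      by_cases hjj : j = j'
      · subst hjj
        rw [e1, Matrix.diagonal_apply_eq, neg_mul]
      · rw [e3 j' j (fun e => hjj e.symm), Matrix.diagonal_apply_ne _ hjj, mul_zero, neg_zero]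
    · show M (1, j) ⬝ᵥ (G₁ ⊗ₖ G₂) *ᵥ M (1, j') = G₁ 1 1 * Matrix.diagonal c j j'
      rw [(hM j).2, (hM j').2, isom_form _ Y hY, e2, h11, zero_mul]
  have hM2 : Y * Mᵀ = Mᵀ * ((!![0, -1; 1, 0] : Matrix (Fin 2) (Fin 2) F) ⊗ₖ
      (1 : Matrix (Fin b) (Fin b) F)) := by
    ext r ⟨i, k⟩
    have keyL : (Y * Mᵀ) r (i, k) = (Y *ᵥ M (i, k)) r := rfl
    have keyR : (Mᵀ * ((!![0, -1; 1, 0] : Matrix (Fin 2) (Fin 2) F) ⊗ₖ
        (1 : Matrix (Fin b) (Fin b) F))) r (i, k) =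
        M (0, k) r * (!![0, -1; 1, 0] : Matrix (Fin 2) (Fin 2) F) 0 i +
          M (1, k) r * (!![0, -1; 1, 0] : Matrix (Fin 2) (Fin 2) F) 1 i := by
      rw [Matrix.mul_apply, Fintype.sum_prod_type, Fin.sum_univ_two]
      simp [Matrix.kroneckerMap_apply, Matrix.one_apply]
    rw [keyL, keyR]
    fin_cases i
    · simp [(hM k).1, (hM k).2]
    · simp [(hM k).1, (hM k).2, hYYv]
  have hCu : IsUnit C.det := isUnit_iff_ne_zero.mpr hC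
  have hG₂' : C⁻¹ᵀ * Matrix.diagonal c * C⁻¹ = G₂ := by
    rw [← hCG, ← Matrix.mul_assoc, ← Matrix.mul_assoc, ← Matrix.transpose_mul,
      Matrix.mul_nonsing_inv C hCu, Matrix.transpose_one, Matrix.one_mul, Matrix.mul_assoc,
      Matrix.mul_nonsing_inv C hCu, Matrix.mul_one]
  have hcongr : (Mᵀ * ((1 : Matrix (Fin 2) (Fin 2) F) ⊗ₖ C⁻¹))ᵀ * (G₁ ⊗ₖ G₂) *
      (Mᵀ * ((1 : Matrix (Fin 2) (Fin 2) F) ⊗ₖ C⁻¹)) = G₁ ⊗ₖ G₂ := by
    have e : (Mᵀ * ((1 : Matrix (Fin 2) (Fin 2) F) ⊗ₖ C⁻¹))ᵀ * (G₁ ⊗ₖ G₂) *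
        (Mᵀ * ((1 : Matrix (Fin 2) (Fin 2) F) ⊗ₖ C⁻¹)) =
        ((1 : Matrix (Fin 2) (Fin 2) F) ⊗ₖ C⁻¹)ᵀ * (M * (G₁ ⊗ₖ G₂) * Mᵀ) *
          ((1 : Matrix (Fin 2) (Fin 2) F) ⊗ₖ C⁻¹) := by
      rw [Matrix.transpose_mul, Matrix.transpose_transpose]
      simp only [Matrix.mul_assoc]
    rw [e, hM1, ← Matrix.kroneckerMap_transpose, Matrix.transpose_one,
      ← Matrix.mul_kronecker_mul, ← Matrix.mul_kronecker_mul, Matrix.one_mul, Matrix.mul_one,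
      hG₂']
  refine ⟨Mᵀ * ((1 : Matrix (Fin 2) (Fin 2) F) ⊗ₖ C⁻¹), !![0, -1; 1, 0],
    det_ne_zero_of_congr _ _ hdK hcongr, hcongr, ?_, ?_⟩
  · rw [Matrix.det_fin_two_of]
    simp
  · rw [← Matrix.mul_assoc, hM2, Matrix.mul_assoc, Matrix.mul_assoc,
      ← Matrix.mul_kronecker_mul, ← Matrix.mul_kronecker_mul, Matrix.one_mul, Matrix.mul_one,
      Matrix.one_mul, Matrix.mul_one]

end Cfsg.Agent.Lib.Helper70.SpTCNEG
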