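import Mathlib

/-!
# Splitting off a hyperbolic plane of a non-degenerate alternating form (helper70)

Used for the pieces POSB and NEGB of S5980.
-/

set_option autoImplicit false

namespace Cfsg.Agent.Lib.Helper70.SpTSplit

universe u

open LinearMap.BilinForm in
/-- If `f p q ≠ 0` for an alternating non-degenerate form `f` then `f` is non-degenerate on the
orthogonal complement of the plane spanned by `p` and `q`, which has codimension 2. -/
theorem split {F : Type u} [Field F] {V : Type u} [AddCommGroup V] [Module F V]
    [FiniteDimensional F V] (f : LinearMap.BilinForm F V) (hA : f.IsAlt) (hN : f.Nondegenerate)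
    (p q : V) (hpq : f p q ≠ 0) :
    (f.restrict (f.orthogonal (Submodule.span F {p, q}))).Nondegenerate ∧
      Module.finrank F (f.orthogonal (Submodule.span F {p, q})) + 2 = Module.finrank F V := by
  have hR : f.IsRefl := hA.isRefl
  have hqp : f q p = - f p q := (hA.neg_eq p q).symm
  have key : ∀ s t : F, s • p + t • q ∈ f.orthogonal (Submodule.span F {p, q}) →
      s = 0 ∧ t = 0 := by
    intro s t hx'
    have hp : p ∈ Submodule.span F {p, q} := Submodule.subset_span (by simp)
    have hq : q ∈ Submodule.span F {p, q} := Submodule.subset_span (by simp)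
    have h1 : f p (s • p + t • q) = 0 := hx' p hp
    have h2 : f q (s • p + t • q) = 0 := hx' q hq
    simp only [map_add, map_smul, smul_eq_mul, hA p, hA q, mul_zero, zero_add, add_zero]
      at h1 h2
    rw [hqp] at h2
    refine ⟨?_, ?_⟩
    · rcases mul_eq_zero.mp h2 with h | h
      · exact h
      · exact absurd (neg_eq_zero.mp h) hpq
    · rcases mul_eq_zero.mp h1 with h | h
      · exact h
      · exact absurd h hpq
  have hdisj : Disjoint (Submodule.span F {p, q}) (f.orthogonal (Submodule.span F {p, q})) := by
    rw [Submodule.disjoint_def]
    intro x hx hx'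
    obtain ⟨a, b, rfl⟩ := Submodule.mem_span_pair.mp hx
    obtain ⟨ha, hb⟩ := key a b hx'
    simp [ha, hb]
  have hcompl : IsCompl (Submodule.span F {p, q}) (f.orthogonal (Submodule.span F {p, q})) :=
    (isCompl_orthogonal_iff_disjoint hR).mpr hdisj
  refine ⟨?_, ?_⟩
  · rw [restrict_nondegenerate_iff_isCompl_orthogonal hR, orthogonal_orthogonal hN hR]
    exact hcompl.symm
  · have h1 := Submodule.finrank_add_eq_of_isCompl hcompl
    have h2 : Module.finrank F (Submodule.span F {p, q}) = 2 := by
      have hli : LinearIndependent F ![p, q] := by
        rw [LinearIndependent.pair_iff]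
        intro s t hst
        apply key s t
        rw [hst]
        exact Submodule.zero_mem _
      have h5 := finrank_span_eq_card hli
      have h6 : Set.range ![p, q] = {p, q} := by
        simp [Matrix.range_cons, Set.pair_comm]
      rw [h6] at h5
      simpa using h5
    omega

end Cfsg.Agent.Lib.Helper70.SpTSplit
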