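import Mathlib
import Cfsg.Agent.Lib.Helper37.SpTStmt
import Cfsg.Agent.Lib.Helper70.SpTSplit

/-!
# S5980 piece NEGB: adapted vectors for an isometry with square `-1` (helper70)
-/

set_option autoImplicit false

namespace Cfsg.Agent.Lib.Helper70.SpTNEGB

universe u

open Cfsg.Agent.Lib.Helper37.SpTStmt Cfsg.Agent.Lib.Helper70.SpTSplit

/-- Every element of a finite field of odd characteristic is a sum of two squares. -/
theorem sq_add_sq' {F : Type u} [Field F] [Fintype F] (h2 : (2 : F) ≠ 0) (c : F) :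
    ∃ s t : F, s ^ 2 + t ^ 2 = c := by
  classical
  have hcard : Fintype.card F % 2 = 1 := FiniteField.odd_card_of_char_ne_two (by
    intro h
    apply h2
    have h3 := CharP.cast_eq_zero F (ringChar F)
    rw [h] at h3
    exact_mod_cast h3)
  obtain ⟨a, b, hab⟩ := FiniteField.exists_root_sum_quadratic
    (f := (Polynomial.X ^ 2 : Polynomial F)) (g := Polynomial.X ^ 2 - Polynomial.C c)
    (Polynomial.degree_X_pow 2) (Polynomial.degree_X_pow_sub_C (by decide) _) hcard
  refine ⟨a, b, ?_⟩
  rw [← sub_eq_zero]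
  simpa only [Polynomial.eval_C, Polynomial.eval_X, Polynomial.eval_pow, Polynomial.eval_sub,
    ← add_sub_assoc] using hab

/-- One step: a vector `u` with `f u (x u) = γ`. -/
theorem exists_vec {F : Type u} [Field F] [Fintype F] (h2 : (2 : F) ≠ 0) {V : Type u}
    [AddCommGroup V] [Module F V] [FiniteDimensional F V] (f : LinearMap.BilinForm F V)
    (hA : f.IsAlt) (hN : f.Nondegenerate)
    (x : V →ₗ[F] V) (hiso : ∀ u v, f (x u) (x v) = f u v) (hneg : ∀ v, x (x v) = -v)
    (hV : 0 < Module.finrank F V) (γ : F) :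
    ∃ u : V, f u (x u) = γ := by
  have hex : ∃ a, f a (x a) ≠ 0 := by
    by_contra hcon
    push Not at hcon
    obtain ⟨w, hw⟩ := Module.finrank_pos_iff_exists_ne_zero.mp hV
    have hz : ∃ z, f w z ≠ 0 := by
      by_contra hcon'
      push Not at hcon'
      exact hw (hN.1 w hcon')
    obtain ⟨z, hz⟩ := hz
    have h1 := hcon (w + x z)
    have e1 : f (w + x z) (x (w + x z)) =
        f w (x w) - f w z + f (x z) (x w) - f (x z) z := by
      simp only [map_add, hneg, map_neg, LinearMap.add_apply]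
      ring
    rw [e1, hcon w, hiso z w, ← hA.neg_eq z (x z), hcon z, ← hA.neg_eq w z] at h1
    have h3 : (2 : F) * f w z = 0 := by linear_combination -h1
    exact hz ((mul_eq_zero.mp h3).resolve_left h2)
  obtain ⟨a, ha⟩ := hex
  obtain ⟨s, t, hst⟩ := sq_add_sq' h2 (γ / f a (x a))
  refine ⟨s • a + t • x a, ?_⟩
  have e2 : f (s • a + t • x a) (x (s • a + t • x a)) = (s ^ 2 + t ^ 2) * f a (x a) := by
    simp only [map_add, map_smul, hneg, map_neg, LinearMap.add_apply, LinearMap.smul_apply,
      smul_eq_mul, hA a, hA (x a)]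
    rw [← hA.neg_eq a (x a)]
    ring
  rw [e2, hst, div_mul_cancel₀ _ ha]

theorem negB_aux {F : Type u} [Field F] [Fintype F] (h2 : (2 : F) ≠ 0) :
    ∀ (b : ℕ) (V : Type u) [AddCommGroup V] [Module F V] [FiniteDimensional F V]
      (f : LinearMap.BilinForm F V), f.IsAlt → f.Nondegenerate →
    ∀ x : V →ₗ[F] V, (∀ u v, f (x u) (x v) = f u v) → (∀ v, x (x v) = -v) →
    Module.finrank F V = 2 * b → ∀ γ : Fin b → F, (∀ j, γ j ≠ 0) →
    ∃ u : Fin b → V, (∀ j, f (u j) (x (u j)) = γ j) ∧ (∀ j k, f (u j) (u k) = 0) ∧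
      (∀ j k, j ≠ k → f (u j) (x (u k)) = 0) := by
  intro b
  induction b with
  | zero =>
    intro V _ _ _ f _ _ x _ _ _ γ _
    exact ⟨fun j => j.elim0, fun j => j.elim0, fun j => j.elim0, fun j => j.elim0⟩
  | succ n ih =>
    intro V _ _ _ f hA hN x hiso hneg hdim γ hγ
    obtain ⟨u0, hu0⟩ := exists_vec h2 f hA hN x hiso hneg (by omega) (γ 0)
    have huv0 : f u0 (x u0) ≠ 0 := by rw [hu0]; exact hγ 0
    obtain ⟨hWN, hWd⟩ := split f hA hN u0 (x u0) huv0
    have hu0U : u0 ∈ Submodule.span F {u0, x u0} := Submodule.subset_span (by simp)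
    have hxu0U : x u0 ∈ Submodule.span F {u0, x u0} := Submodule.subset_span (by simp)
    have hxU : ∀ n ∈ Submodule.span F {u0, x u0}, x n ∈ Submodule.span F {u0, x u0} := by
      intro n hn
      obtain ⟨a, b, rfl⟩ := Submodule.mem_span_pair.mp hn
      refine Submodule.mem_span_pair.mpr ⟨-b, a, ?_⟩
      simp only [map_add, map_smul, hneg, smul_neg, neg_smul]
      abel
    have hW1 : ∀ n ∈ Submodule.span F {u0, x u0},
        ∀ w ∈ f.orthogonal (Submodule.span F {u0, x u0}), f n w = 0 := fun n hn w hw => hw n hn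
    have hW2 : ∀ n ∈ Submodule.span F {u0, x u0},
        ∀ w ∈ f.orthogonal (Submodule.span F {u0, x u0}), f w n = 0 := fun n hn w hw => by
      rw [← hA.neg_eq, hW1 n hn w hw, neg_zero]
    have hxW : ∀ w ∈ f.orthogonal (Submodule.span F {u0, x u0}),
        x w ∈ f.orthogonal (Submodule.span F {u0, x u0}) := by
      intro w hw n hn
      show f n (x w) = 0
      have h1 := hiso n (x w)
      rw [hneg, map_neg] at h1
      rw [← h1, hW1 (x n) (hxU n hn) w hw, neg_zero]
    obtain ⟨u', h1', h2', h3'⟩ :=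
      ih ↥(f.orthogonal (Submodule.span F {u0, x u0}))
        (f.restrict (f.orthogonal (Submodule.span F {u0, x u0}))) (fun w => hA w.1) hWN
        (x.restrict hxW) (fun a b => hiso a.1 b.1) (fun a => Subtype.ext (hneg a.1))
        (by omega) (fun j => γ j.succ) (fun j => hγ j.succ)
    refine ⟨Fin.cons u0 (fun j => (u' j : V)), ?_, ?_, ?_⟩
    · intro j
      refine Fin.cases ?_ (fun j => ?_) j
      · simpa using hu0
      · simpa using h1' j
    · intro j k
      refine Fin.cases ?_ (fun j => ?_) j <;> refine Fin.cases ?_ (fun k => ?_) k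
      · simpa using hA u0
      · simpa using hW1 u0 hu0U _ (u' k).2
      · simpa using hW2 u0 hu0U _ (u' j).2
      · simpa using h2' j k
    · intro j k
      refine Fin.cases ?_ (fun j => ?_) j <;> refine Fin.cases ?_ (fun k => ?_) k
      · intro h
        exact absurd rfl h
      · intro _
        simpa using hW1 u0 hu0U _ (hxW _ (u' k).2)
      · intro _
        simpa using hW2 (x u0) hxu0U _ (u' j).2
      · intro h
        have h4 := h3' j k (fun e => h (congrArg Fin.succ e))
        simpa using h4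

theorem main : NegB.{u} := by
  intro F _ _ h2 V _ _ _ f hA hN x hiso hneg b hdim γ hγ
  exact negB_aux h2 b V f hA hN x hiso hneg hdim γ hγ

end Cfsg.Agent.Lib.Helper70.SpTNEGB
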