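import Mathlib
import Cfsg.Agent.Lib.Helper37.SpTStmt
import Cfsg.Agent.Lib.Helper70.SpTSplit

/-!
# S5980 piece POSB: adapted symplectic basis of an involutory isometry (helper70)
-/

set_option autoImplicit false

namespace Cfsg.Agent.Lib.Helper70.SpTPOSB

universe u

open Cfsg.Agent.Lib.Helper37.SpTStmt Cfsg.Agent.Lib.Helper70.SpTSplit

/-- One step: a pair of eigenvectors for the same eigenvalue with prescribed pairing. -/
theorem exists_pair {F : Type u} [Field F] (h2 : (2 : F) ≠ 0) {V : Type u} [AddCommGroup V]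
    [Module F V] [FiniteDimensional F V] (f : LinearMap.BilinForm F V)
    (hN : f.Nondegenerate)
    (x : V →ₗ[F] V) (hiso : ∀ u v, f (x u) (x v) = f u v) (hinv : ∀ v, x (x v) = v)
    (hV : 0 < Module.finrank F V) (γ : F) :
    ∃ (ε : F) (u v : V), (ε = 1 ∨ ε = -1) ∧ f u v = γ ∧ x u = ε • u ∧ x v = ε • v := by
  obtain ⟨w, hw⟩ := Module.finrank_pos_iff_exists_ne_zero.mp hV
  have hev : ∃ (ε : F) (u : V), (ε = 1 ∨ ε = -1) ∧ u ≠ 0 ∧ x u = ε • u := by
    by_cases h : w + x w = 0
    · refine ⟨-1, w - x w, Or.inr rfl, ?_, ?_⟩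
      · intro h'
        have h3 : (2 : F) • w = 0 := by
          have h4 : (2 : F) • w = (w + x w) + (w - x w) := by rw [two_smul]; abel
          rw [h4, h, h', add_zero]
        exact hw ((smul_eq_zero.mp h3).resolve_left h2)
      · rw [map_sub, hinv, neg_smul, one_smul]; abel
    · refine ⟨1, w + x w, Or.inl rfl, h, ?_⟩
      rw [map_add, hinv, one_smul]; abel
  obtain ⟨ε, u, hε, hu, hxu⟩ := hev
  have hεε : ε * ε = 1 := by rcases hε with rfl | rfl <;> simp
  have hz : ∃ z, f u z ≠ 0 := by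
    by_contra hcon
    push Not at hcon
    exact hu (hN.1 u hcon)
  obtain ⟨z, hz⟩ := hz
  have h3 : f u (x z) = ε * f u z := by
    have h := hiso u z
    rw [hxu, map_smul, LinearMap.smul_apply, smul_eq_mul] at h
    calc f u (x z) = (ε * ε) * f u (x z) := by rw [hεε, one_mul]
      _ = ε * (ε * f u (x z)) := by ring
      _ = ε * f u z := by rw [h]
  have h4 : f u (z + ε • x z) = 2 * f u z := by
    rw [map_add, map_smul, h3, smul_eq_mul, ← mul_assoc, hεε]; ring
  have h5 : x (z + ε • x z) = ε • (z + ε • x z) := by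
    rw [map_add, map_smul, hinv, smul_add, smul_smul, hεε, one_smul]; abel
  have h6 : f u (z + ε • x z) ≠ 0 := by rw [h4]; exact mul_ne_zero h2 hz
  refine ⟨ε, u, (γ / f u (z + ε • x z)) • (z + ε • x z), hε, ?_, hxu, ?_⟩
  · rw [map_smul, smul_eq_mul, div_mul_cancel₀ _ h6]
  · rw [map_smul, h5, smul_comm]

theorem posB_aux {F : Type u} [Field F] (h2 : (2 : F) ≠ 0) :
    ∀ (b : ℕ) (V : Type u) [AddCommGroup V] [Module F V] [FiniteDimensional F V]
      (f : LinearMap.BilinForm F V), f.IsAlt → f.Nondegenerate →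
    ∀ x : V →ₗ[F] V, (∀ u v, f (x u) (x v) = f u v) → (∀ v, x (x v) = v) →
    Module.finrank F V = 2 * b → ∀ γ : Fin b → F, (∀ j, γ j ≠ 0) →
    ∃ (ε : Fin b → F) (u v : Fin b → V), (∀ j, ε j = 1 ∨ ε j = -1) ∧
      (∀ j k, f (u j) (v k) = if j = k then γ j else 0) ∧
      (∀ j k, f (u j) (u k) = 0) ∧ (∀ j k, f (v j) (v k) = 0) ∧
      (∀ j, x (u j) = ε j • u j) ∧ (∀ j, x (v j) = ε j • v j) := by
  intro b
  induction b with
  | zero =>
    intro V _ _ _ f _ _ x _ _ _ γ _
    exact ⟨fun j => j.elim0, fun j => j.elim0, fun j => j.elim0, fun j => j.elim0,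
      fun j => j.elim0, fun j => j.elim0, fun j => j.elim0, fun j => j.elim0, fun j => j.elim0⟩
  | succ n ih =>
    intro V _ _ _ f hA hN x hiso hinv hdim γ hγ
    obtain ⟨ε0, u0, v0, hε0, huv, hxu, hxv⟩ :=
      exists_pair h2 f hN x hiso hinv (by omega) (γ 0)
    have huv0 : f u0 v0 ≠ 0 := by rw [huv]; exact hγ 0
    obtain ⟨hWN, hWd⟩ := split f hA hN u0 v0 huv0
    have hu0U : u0 ∈ Submodule.span F {u0, v0} := Submodule.subset_span (by simp)
    have hv0U : v0 ∈ Submodule.span F {u0, v0} := Submodule.subset_span (by simp)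
    have hxU : ∀ n ∈ Submodule.span F {u0, v0}, x n = ε0 • n := by
      intro n hn
      obtain ⟨a, b, rfl⟩ := Submodule.mem_span_pair.mp hn
      rw [map_add, map_smul, map_smul, hxu, hxv, smul_add, smul_comm a, smul_comm b]
    have hW1 : ∀ n ∈ Submodule.span F {u0, v0},
        ∀ w ∈ f.orthogonal (Submodule.span F {u0, v0}), f n w = 0 := fun n hn w hw => hw n hn
    have hW2 : ∀ n ∈ Submodule.span F {u0, v0},
        ∀ w ∈ f.orthogonal (Submodule.span F {u0, v0}), f w n = 0 := fun n hn w hw => by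
      rw [← hA.neg_eq, hW1 n hn w hw, neg_zero]
    have hxW : ∀ w ∈ f.orthogonal (Submodule.span F {u0, v0}),
        x w ∈ f.orthogonal (Submodule.span F {u0, v0}) := by
      intro w hw n hn
      show f n (x w) = 0
      have h1 := hiso n (x w)
      rw [hinv, hxU n hn, map_smul, LinearMap.smul_apply] at h1
      rw [← h1, hW1 n hn w hw, smul_zero]
    obtain ⟨ε', u', v', hε', huv', huu', hvv', hxu', hxv'⟩ :=
      ih ↥(f.orthogonal (Submodule.span F {u0, v0}))
        (f.restrict (f.orthogonal (Submodule.span F {u0, v0}))) (fun w => hA w.1) hWN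
        (x.restrict hxW) (fun a b => hiso a.1 b.1) (fun a => Subtype.ext (hinv a.1))
        (by omega) (fun j => γ j.succ) (fun j => hγ j.succ)
    refine ⟨Fin.cons ε0 ε', Fin.cons u0 (fun j => (u' j : V)),
      Fin.cons v0 (fun j => (v' j : V)), ?_, ?_, ?_, ?_, ?_, ?_⟩
    · intro j
      refine Fin.cases ?_ (fun j => ?_) j
      · simpa using hε0
      · simpa using hε' j
    · intro j k
      refine Fin.cases ?_ (fun j => ?_) j <;> refine Fin.cases ?_ (fun k => ?_) k
      · simpa using huv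
      · simp only [Fin.cons_zero, Fin.cons_succ]
        rw [hW1 u0 hu0U _ (v' k).2, if_neg (Fin.succ_ne_zero k).symm]
      · simp only [Fin.cons_zero, Fin.cons_succ]
        rw [hW2 v0 hv0U _ (u' j).2, if_neg (Fin.succ_ne_zero j)]
      · simp only [Fin.cons_succ]
        have h := huv' j k
        simpa [Fin.succ_inj] using h
    · intro j k
      refine Fin.cases ?_ (fun j => ?_) j <;> refine Fin.cases ?_ (fun k => ?_) k
      · simpa using hA u0
      · simpa using hW1 u0 hu0U _ (u' k).2
      · simpa using hW2 u0 hu0U _ (u' j).2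
      · simpa using huu' j k
    · intro j k
      refine Fin.cases ?_ (fun j => ?_) j <;> refine Fin.cases ?_ (fun k => ?_) k
      · simpa using hA v0
      · simpa using hW1 v0 hv0U _ (v' k).2
      · simpa using hW2 v0 hv0U _ (v' j).2
      · simpa using hvv' j k
    · intro j
      refine Fin.cases ?_ (fun j => ?_) j
      · simpa using hxu
      · have h := congrArg Subtype.val (hxu' j)
        simpa using h
    · intro j
      refine Fin.cases ?_ (fun j => ?_) j
      · simpa using hxv
      · have h := congrArg Subtype.val (hxv' j)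
        simpa using h

theorem main : PosB.{u} := by
  intro F _ h2 V _ _ _ f hA hN x hiso hinv b hdim γ hγ
  exact posB_aux h2 b V f hA hN x hiso hinv hdim γ hγ

end Cfsg.Agent.Lib.Helper70.SpTPOSB
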