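import Mathlib
import Cfsg.Agent.Lib.Helper44.TPStmt

/-! S5973: common tools for the pieces BADA, BADB, BADD. -/

set_option autoImplicit false
universe u

namespace Cfsg.Agent.Lib.Helper70.TPBadLib

open Cfsg.Agent.Lib.Helper44.TPStmt
open Cfsg.Agent.Lib.Helper37.HypStmt (cc IPos)
open Cfsg.Agent.Lib.Helper44.TSStmt (Fac NumTypes)

theorem omegaGL_le {F : Type u} [Field F] (d : ℕ) :
    Cfsg.Geo.omegaGL (Cfsg.quadFormPlus d F) ≤ Cfsg.isometryGroup F (Cfsg.quadFormPlus d F) := by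
  rintro _ ⟨y, -, rfl⟩
  exact y.2

theorem tsub_mono {F : Type u} [Field F] {d : ℕ} {U W : Submodule F (J d → F)} (h : U ≤ W)
    (hW : TSub d F W) : TSub d F U := fun w hw => hW w (h hw)

/-- an invariant totally singular `W` of finrank `m`: the part `R` off the fixed space has finrank
`i s`, and `W ⊓ Fx` is totally singular of finrank `m - i s`. -/
theorem core (hRImg : RImg.{u}) (hInvDim : InvDim.{u}) (F : Type u) [Field F] [Fintype F]
    (p : ℕ) [Fact p.Prime] [CharP F p] (d m r : ℕ) [Fact r.Prime] (hrp : r ≠ p)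
    (x : Matrix.GeneralLinearGroup (J d) F) (hxr : x ^ r = 1)
    (hfix : FixTS d m F (x : Matrix (J d) (J d) F)) :
    ∃ s : ℕ, orderOf ((Fintype.card F : ℕ) : ZMod r) * s ≤ m ∧
      ∃ U : Submodule F (J d → F), U ≤ Fx (x : Matrix (J d) (J d) F) ∧ TSub d F U ∧
        Module.finrank F ↥U = m - orderOf ((Fintype.card F : ℕ) : ZMod r) * s := by
  obtain ⟨W, hWm, hWts, hWst⟩ := hfix
  obtain ⟨R, hRW, hRst, hRfx, hRdim, -⟩ := hRImg F p d r hrp x hxr W hWst
  obtain ⟨s, hs⟩ := hInvDim F p d r hrp x hxr R hRst hRfx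
  refine ⟨s, by omega, W ⊓ Fx (x : Matrix (J d) (J d) F), inf_le_right,
    tsub_mono inf_le_left hWts, by omega⟩

end Cfsg.Agent.Lib.Helper70.TPBadLib
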