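import Mathlib
import Cfsg.Agent.Lib.Helper44.TPStmt
import Cfsg.Agent.Lib.Helper70.TPBadLib

/-! S5973 piece BADA. -/

set_option autoImplicit false
universe u

namespace Cfsg.Agent.Lib.Helper70.TPBADA

open Cfsg.Agent.Lib.Helper44.TPStmt
open Cfsg.Agent.Lib.Helper37.HypStmt (cc IPos)
open Cfsg.Agent.Lib.Helper44.TSStmt (Fac NumTypes)
open Cfsg.Agent.Lib.Helper70.TPBadLib

theorem main : EltDim.{u} → FixND.{u} → TsHalf.{u} → RImg.{u} → InvDim.{u} → BadA.{u} := by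
  intro hElt hFixND hTsHalf hRImg hInvDim F _ _ p _ _ d m hd r _ hr2 hrp b hb hle htype hbad
  obtain ⟨x, hxΩ, hxr, hxfx⟩ := hElt F p d hd r hr2 hrp b hb hle htype
  refine ⟨x, hxΩ, hxr, ?_⟩
  intro hfix
  obtain ⟨s, hs, U, hUfx, hUts, hUdim⟩ := core hRImg hInvDim F p d m r hrp x hxr hfix
  have hnd := hFixND F p d r hrp x (omegaGL_le d hxΩ) hxr
  have h2 := hTsHalf F d _ U hnd hUfx hUts
  have h3 := hbad s hs
  omega

end Cfsg.Agent.Lib.Helper70.TPBADA
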