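import Mathlib
import Cfsg.Agent.Lib.Helper44.TPStmt
import Cfsg.Agent.Lib.Helper70.TPBadLib

/-! S5973 piece BADB. -/

set_option autoImplicit false
universe u

namespace Cfsg.Agent.Lib.Helper70.TPBADB

open Cfsg.Agent.Lib.Helper44.TPStmt
open Cfsg.Agent.Lib.Helper37.HypStmt (cc IPos)
open Cfsg.Agent.Lib.Helper44.TSStmt (Fac NumTypes)
open Cfsg.Agent.Lib.Helper70.TPBadLib

theorem main : IPos.{u} → EltDim.{u} → FixND.{u} → FxType.{u} → TsHalf.{u} → RImg.{u} →
    InvDim.{u} → BadB.{u} := by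
  intro hIPos hElt hFixND hFxType hTsHalf hRImg hInvDim F _ _ p _ _ d m hd r _ hr2 hrp hie b hbo
    hlt hbad
  have hipos := hIPos F p r hrp
  have hcc : cc (orderOf ((Fintype.card F : ℕ) : ZMod r)) = orderOf ((Fintype.card F : ℕ) : ZMod r) := by
    unfold cc; rw [if_pos hie]
  have hb1 : 1 ≤ b := by
    obtain ⟨k, hk⟩ := hbo; omega
  obtain ⟨x, hxΩ, hxr, hxfx⟩ := hElt F p d hd r hr2 hrp b hb1 (by rw [hcc]; omega)
    (by rw [hcc]; intro h; omega)
  rw [hcc] at hxfx
  refine ⟨x, hxΩ, hxr, ?_⟩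
  intro hfix
  obtain ⟨s, hs, U, hUfx, hUts, hUdim⟩ := core hRImg hInvDim F p d m r hrp x hxr hfix
  have hnd := hFixND F p d r hrp x (omegaGL_le d hxΩ) hxr
  have h2 := hTsHalf F d _ U hnd hUfx hUts
  have h3 := hbad s hs
  have hFx := hFxType F p d r hr2 hrp x (omegaGL_le d hxΩ) hxr
  have hnP : ¬ Plus d F (Fx (x : Matrix (J d) (J d) F)) := by
    intro hP
    rcases hFx.1 hP with h | h
    · exact (Nat.not_odd_iff_even.2 hie) h
    · rw [hxfx] at h
      have e : (2 * d - (2 * d - b * orderOf ((Fintype.card F : ℕ) : ZMod r))) /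
          orderOf ((Fintype.card F : ℕ) : ZMod r) = b := by
        have e1 : 2 * d - (2 * d - b * orderOf ((Fintype.card F : ℕ) : ZMod r)) =
            b * orderOf ((Fintype.card F : ℕ) : ZMod r) := by omega
        rw [e1]; exact Nat.mul_div_cancel b hipos
      rw [e] at h
      exact (Nat.not_even_iff_odd.2 hbo) h
  have hne : 2 * Module.finrank F ↥U ≠ Module.finrank F ↥(Fx (x : Matrix (J d) (J d) F)) := by
    intro h
    exact hnP ⟨U, hUfx, hUts, h⟩
  obtain ⟨c, hc⟩ : Even (b * orderOf ((Fintype.card F : ℕ) : ZMod r)) := hie.mul_left b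
  omega

end Cfsg.Agent.Lib.Helper70.TPBADB
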