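import Mathlib
import Cfsg.Agent.Lib.Helper44.TPStmt
import Cfsg.Agent.Lib.Helper70.TPBadLib

/-! S5973 piece BADD. -/

set_option autoImplicit false
universe u

namespace Cfsg.Agent.Lib.Helper70.TPBADD

open Cfsg.Agent.Lib.Helper44.TPStmt
open Cfsg.Agent.Lib.Helper37.HypStmt (cc IPos)
open Cfsg.Agent.Lib.Helper44.TSStmt (Fac NumTypes)
open Cfsg.Agent.Lib.Helper70.TPBadLib

theorem main : IPos.{u} → MultElt.{u} → FixND.{u} → FxType.{u} → TsHalf.{u} → RImg.{u} →
    BadD.{u} := by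
  intro hIPos hMult hFixND hFxType hTsHalf hRImg F _ _ p _ _ d m hd r _ hr2 hrp hie u huo hu
    hlt hbad
  have hipos := hIPos F p r hrp
  have hu1 : 1 ≤ u := by
    obtain ⟨k, hk⟩ := huo; omega
  obtain ⟨x, hxΩ, hxr, hxfx, hxR⟩ := hMult F p d hd r hr2 hrp hie u hu1 hu hlt
  refine ⟨x, hxΩ, hxr, ?_⟩
  rintro ⟨W, hWm, hWts, hWst⟩
  obtain ⟨R, hRW, hRst, hRfx, hRdim, -⟩ := hRImg F p d r hrp x hxr W hWst
  have hR0 : R = ⊥ := hxR R hRst hRfx (tsub_mono hRW hWts)
  have hRf : Module.finrank F ↥R = 0 := by rw [hR0]; exact finrank_bot F (J d → F)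
  have hnd := hFixND F p d r hrp x (omegaGL_le d hxΩ) hxr
  have hUts : TSub d F (W ⊓ Fx (x : Matrix (J d) (J d) F)) := tsub_mono inf_le_left hWts
  have h2 := hTsHalf F d _ (W ⊓ Fx (x : Matrix (J d) (J d) F)) hnd inf_le_right hUts
  have hFx := hFxType F p d r hr2 hrp x (omegaGL_le d hxΩ) hxr
  have hnP : ¬ Plus d F (Fx (x : Matrix (J d) (J d) F)) := by
    intro hP
    rcases hFx.1 hP with h | h
    · exact (Nat.not_odd_iff_even.2 hie) h
    · rw [hxfx] at h
      have e : (2 * d - (2 * d - orderOf ((Fintype.card F : ℕ) : ZMod r) * u)) /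
          orderOf ((Fintype.card F : ℕ) : ZMod r) = u := by
        have e1 : 2 * d - (2 * d - orderOf ((Fintype.card F : ℕ) : ZMod r) * u) =
            orderOf ((Fintype.card F : ℕ) : ZMod r) * u := by omega
        rw [e1]; exact Nat.mul_div_cancel_left u hipos
      rw [e] at h
      exact (Nat.not_even_iff_odd.2 huo) h
  have hne : 2 * Module.finrank F ↥(W ⊓ Fx (x : Matrix (J d) (J d) F)) ≠
      Module.finrank F ↥(Fx (x : Matrix (J d) (J d) F)) := by
    intro h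
    exact hnP ⟨_, inf_le_right, hUts, h⟩
  obtain ⟨c, hc⟩ : Even (orderOf ((Fintype.card F : ℕ) : ZMod r) * u) := hie.mul_right u
  omega

end Cfsg.Agent.Lib.Helper70.TPBADD
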