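import Mathlib
import Cfsg.Agent.Lib.Helper44.TPStmt

/-! S5973 piece FXTYPE: the type of the fixed space. -/

set_option autoImplicit false
universe u

namespace Cfsg.Agent.Lib.Helper70.TPFXTYPE

open Cfsg.Agent.Lib.Helper44.TPStmt
open Cfsg.Agent.Lib.Helper37.HypStmt (cc IPos)
open Cfsg.Agent.Lib.Helper44.TSStmt (Fac NumTypes)

theorem main : Top.{u} → FixND.{u} → Perp.{u} → HalfOdd.{u} → TypeEven.{u} → Cancel.{u} →
    FxType.{u} := by
  intro hTop hFixND hPerp hHalfOdd hTypeEven hCancel F _ _ p _ _ d r _ hr2 hrp x hx hxr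
  have hnd := hFixND F p d r hrp x hx hxr
  obtain ⟨E, horth, hEnd, hGE, hdim, hstab⟩ := hPerp F d _ hnd
  have hstabFx : Stab (x : Matrix (J d) (J d) F) (Fx (x : Matrix (J d) (J d) F)) := by
    intro v hv
    obtain ⟨w, hw, rfl⟩ := Submodule.mem_map.1 hv
    have hw' : Matrix.toLin' (x : Matrix (J d) (J d) F) w = w := by
      have := hw
      unfold Fx at this
      rw [LinearMap.mem_ker, LinearMap.sub_apply, LinearMap.id_apply, sub_eq_zero] at this
      exact this
    rw [hw']; exact hw
  have hEst := hstab x hx hstabFx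
  have hEfx : E ⊓ Fx (x : Matrix (J d) (J d) F) = ⊥ := by rw [inf_comm]; exact hGE
  have htop : Fx (x : Matrix (J d) (J d) F) ⊔ E = ⊤ := by
    apply Submodule.eq_top_of_finrank_eq
    have h1 := Submodule.finrank_sup_add_finrank_inf_eq (Fx (x : Matrix (J d) (J d) F)) E
    rw [hGE, finrank_bot, add_zero] at h1
    rw [h1, hdim, Module.finrank_fintype_fun_eq_card]
    simp [two_mul]
  have hPtop : Plus d F (Fx (x : Matrix (J d) (J d) F) ⊔ E) := by rw [htop]; exact (hTop F d).2
  have hPtop' : Plus d F (E ⊔ Fx (x : Matrix (J d) (J d) F)) := by rw [sup_comm]; exact hPtop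
  have horth' : ∀ u ∈ E, ∀ v ∈ Fx (x : Matrix (J d) (J d) F),
      QuadraticMap.polar (Cfsg.quadFormPlus d F) u v = 0 := by
    intro u hu v hv
    rw [QuadraticMap.polar_comm]; exact horth v hv u hu
  have hEdim : Module.finrank F ↥E =
      2 * d - Module.finrank F ↥(Fx (x : Matrix (J d) (J d) F)) := by omega
  rcases Nat.even_or_odd (orderOf ((Fintype.card F : ℕ) : ZMod r)) with hie | hio
  · have hT := hTypeEven F p d r hr2 hrp hie x hx hxr E hEst hEnd hEfx
    rw [hEdim] at hT
    constructor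
    · intro hP
      right
      exact hT.1 (hCancel F d _ E hnd hEnd horth hPtop hP)
    · rintro (h | h)
      · exact absurd h (Nat.not_odd_iff_even.2 hie)
      · exact hCancel F d E _ hEnd hnd horth' hPtop' (hT.2 h)
  · constructor
    · intro _; exact Or.inl hio
    · intro _
      obtain ⟨U, hUE, -, hUts, hUdim⟩ := hHalfOdd F p d r hr2 hrp hio x hx hxr E hEst hEnd hEfx
      exact hCancel F d E _ hEnd hnd horth' hPtop' ⟨U, hUE, hUts, hUdim⟩

end Cfsg.Agent.Lib.Helper70.TPFXTYPE
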